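import Mathlib
import Cfsg.Agent.Helper13.TIDefs

set_option autoImplicit false

namespace Cfsg.Agent.Helper41.TI5955

open Module Polynomial
open Cfsg.Agent.Helper42.SpForm Cfsg.Agent.Helper42.SpGroup Cfsg.Agent.Helper42.SpModels
open Cfsg.Agent.Helper13.TIsp Cfsg.Agent.Helper90.BG

variable {F : Type*} [Field F] [Fintype F]

/-- TYPES: pairwise non-conjugate nontrivial powers of `ω`. -/
theorem ti_types {K : Type*} [Field K] [Algebra F K] [FiniteDimensional F K] (r : ℕ)
    [Fact r.Prime] (hrF : (r : F) ≠ 0) (ω : K) (hω : ω ^ r = 1) (hω1 : ω ≠ 1) (u : ℕ)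
    (hu : u ≤ (r - 1) / orderOf ((Fintype.card F : ℕ) : ZMod r)) :
    ∃ s : Fin u → ℕ, (∀ j, ω ^ s j ≠ 1) ∧
      (∀ j, (minpoly F (ω ^ s j)).natDegree = orderOf ((Fintype.card F : ℕ) : ZMod r)) ∧
      ∀ j l, j ≠ l → minpoly F (ω ^ s j) ≠ minpoly F (ω ^ s l) := by
  classical
  have hrp : r.Prime := Fact.out
  have hord : orderOf ω = r := orderOf_eq_prime hω hω1
  have hint : ∀ k : K, IsIntegral F k := fun k => Algebra.IsIntegral.isIntegral _
  -- nontrivial powers
  have hne1 : ∀ s ∈ Finset.Icc 1 (r - 1), ω ^ s ≠ 1 := by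
    intro s hs
    rw [Finset.mem_Icc] at hs
    apply pow_ne_one_of_lt_orderOf (by omega)
    rw [hord]
    have := hrp.two_le
    omega
  -- degrees
  have hdeg : ∀ s ∈ Finset.Icc 1 (r - 1),
      (minpoly F (ω ^ s)).natDegree = orderOf ((Fintype.card F : ℕ) : ZMod r) := by
    intro s hs
    apply Cfsg.Agent.Helper46.bgl_irr_factor_degree r hrF _ (minpoly.irreducible (hint _))
    apply minpoly.dvd
    have h1 : (ω ^ s - 1) * ∑ i ∈ Finset.range r, (ω ^ s) ^ i = 0 := by
      rw [mul_geom_sum, ← pow_mul, mul_comm, pow_mul, hω, one_pow, sub_self]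
    have h2 : ω ^ s - 1 ≠ 0 := sub_ne_zero.mpr (hne1 s hs)
    have h3 := (mul_eq_zero.mp h1).resolve_left h2
    rw [map_sum]
    simpa using h3
  -- counting
  have hcard : (Finset.Icc 1 (r - 1)).card ≤ orderOf ((Fintype.card F : ℕ) : ZMod r) *
      ((Finset.Icc 1 (r - 1)).image (fun s => minpoly F (ω ^ s))).card := by
    apply Finset.card_le_mul_card_image
    intro P hP
    obtain ⟨s₀, hs₀, rfl⟩ := Finset.mem_image.mp hP
    have hP0 : minpoly F (ω ^ s₀) ≠ 0 := minpoly.ne_zero (hint _)
    calc (Finset.filter (fun x => minpoly F (ω ^ x) = minpoly F (ω ^ s₀))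
            (Finset.Icc 1 (r - 1))).card
        ≤ ((minpoly F (ω ^ s₀)).aroots K).toFinset.card := by
          apply Finset.card_le_card_of_injOn (fun x => ω ^ x)
          · intro x hx
            have hx' := (Finset.mem_filter.mp hx).2
            show ω ^ x ∈ ((minpoly F (ω ^ s₀)).aroots K).toFinset
            rw [Multiset.mem_toFinset, mem_aroots]
            refine ⟨hP0, ?_⟩
            rw [← hx']
            exact minpoly.aeval F _
          · intro x hx y hy hxy
            have hx1 := Finset.mem_Icc.mp (Finset.mem_filter.mp hx).1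
            have hy1 := Finset.mem_Icc.mp (Finset.mem_filter.mp hy).1
            have := hrp.two_le
            apply pow_injOn_Iio_orderOf (x := ω)
            · show x < orderOf ω
              rw [hord]; omega
            · show y < orderOf ω
              rw [hord]; omega
            · exact hxy
      _ ≤ Multiset.card ((minpoly F (ω ^ s₀)).aroots K) := Multiset.toFinset_card_le _
      _ ≤ ((minpoly F (ω ^ s₀)).map (algebraMap F K)).natDegree := Polynomial.card_roots' _
      _ = (minpoly F (ω ^ s₀)).natDegree := natDegree_map _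
      _ = orderOf ((Fintype.card F : ℕ) : ZMod r) := hdeg s₀ hs₀
  have hcard1 : (Finset.Icc 1 (r - 1)).card = r - 1 := by simp
  have hule : u ≤ ((Finset.Icc 1 (r - 1)).image (fun s => minpoly F (ω ^ s))).card := by
    refine hu.trans (Nat.div_le_of_le_mul ?_)
    exact hcard1.symm.le.trans hcard
  obtain ⟨t, ht, htc⟩ := Finset.exists_subset_card_eq hule
  let e : Fin u ≃ t := (Finset.equivFinOfCardEq htc).symm
  have hex : ∀ j : Fin u, ∃ s ∈ Finset.Icc 1 (r - 1), minpoly F (ω ^ s) = (e j : F[X]) := fun j =>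
    Finset.mem_image.mp (ht (e j).2)
  choose s hs hsP using hex
  refine ⟨s, fun j => hne1 _ (hs j), fun j => hdeg _ (hs j), fun j l hjl h => ?_⟩
  rw [hsP, hsP] at h
  exact hjl (e.injective (Subtype.ext h))

end Cfsg.Agent.Helper41.TI5955
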