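import Mathlib
import Cfsg.Agent.Helper13.TIDefs

set_option autoImplicit false

namespace Cfsg.Agent.Helper41.TI5955

open Module Polynomial
open Cfsg.Agent.Helper42.SpForm Cfsg.Agent.Helper42.SpGroup Cfsg.Agent.Helper42.SpModels
open Cfsg.Agent.Helper13.TIsp Cfsg.Agent.Helper90.BG

theorem cntb_symp_add_left {F : Type*} [Field F] (d : ℕ) (u u' v : Fin d ⊕ Fin d → F) :
    Cfsg.sympForm d F (u + u') v = Cfsg.sympForm d F u v + Cfsg.sympForm d F u' v := by
  unfold Cfsg.sympForm
  rw [add_dotProduct]

theorem cntb_symp_smul_left {F : Type*} [Field F] (d : ℕ) (c : F) (u v : Fin d ⊕ Fin d → F) :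
    Cfsg.sympForm d F (c • u) v = c * Cfsg.sympForm d F u v := by
  unfold Cfsg.sympForm
  rw [smul_dotProduct, smul_eq_mul]

theorem cntb_symp_add_right {F : Type*} [Field F] (d : ℕ) (u v v' : Fin d ⊕ Fin d → F) :
    Cfsg.sympForm d F u (v + v') = Cfsg.sympForm d F u v + Cfsg.sympForm d F u v' := by
  unfold Cfsg.sympForm
  rw [Matrix.mulVec_add, dotProduct_add]

theorem cntb_symp_smul_right {F : Type*} [Field F] (d : ℕ) (c : F) (u v : Fin d ⊕ Fin d → F) :
    Cfsg.sympForm d F u (c • v) = c * Cfsg.sympForm d F u v := by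
  unfold Cfsg.sympForm
  rw [Matrix.mulVec_smul, dotProduct_smul, smul_eq_mul]

theorem cntb_symp_zero_left {F : Type*} [Field F] (d : ℕ) (v : Fin d ⊕ Fin d → F) :
    Cfsg.sympForm d F 0 v = 0 := by
  unfold Cfsg.sympForm
  rw [zero_dotProduct]

theorem cntb_symp_zero_right {F : Type*} [Field F] (d : ℕ) (u : Fin d ⊕ Fin d → F) :
    Cfsg.sympForm d F u 0 = 0 := by
  unfold Cfsg.sympForm
  rw [Matrix.mulVec_zero, dotProduct_zero]

/-- the span of a totally isotropic family is totally isotropic -/
theorem cntb_span_ti {F : Type*} [Field F] (d m : ℕ) (v : Fin m → (Fin d ⊕ Fin d → F))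
    (hv : ∀ a b, Cfsg.sympForm d F (v a) (v b) = 0) :
    ∀ x ∈ Submodule.span F (Set.range v), ∀ y ∈ Submodule.span F (Set.range v),
      Cfsg.sympForm d F x y = 0 := by
  intro x hx y hy
  induction hx using Submodule.span_induction with
  | mem x hx =>
    obtain ⟨a, rfl⟩ := hx
    induction hy using Submodule.span_induction with
    | mem y hy => obtain ⟨b, rfl⟩ := hy; exact hv a b
    | zero => exact cntb_symp_zero_right d _
    | add y y' _ _ h h' => rw [cntb_symp_add_right, h, h', add_zero]
    | smul c y _ h => rw [cntb_symp_smul_right, h, mul_zero]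
  | zero => exact cntb_symp_zero_left d _
  | add x x' _ _ h h' => rw [cntb_symp_add_left, h, h', add_zero]
  | smul c x _ h => rw [cntb_symp_smul_left, h, mul_zero]

/-- CNTB -/
theorem cnt_b (F : Type*) [Field F] [Fintype F] (d m : ℕ) :
    Nat.card (TIFam F d m) =
      Nat.card {W : Submodule F (Fin d ⊕ Fin d → F) // Module.finrank F ↥W = m ∧
        (∀ u ∈ W, ∀ v ∈ W, Cfsg.sympForm d F u v = 0)} *
      ∏ j ∈ Finset.range m, (Fintype.card F ^ m - Fintype.card F ^ j) := by
  classical
  have hfinT : Finite (TIFam F d m) := by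
    unfold TIFam
    infer_instance
  have hfinS : Finite (Submodule F (Fin d ⊕ Fin d → F)) :=
    Finite.of_injective (fun W : Submodule F (Fin d ⊕ Fin d → F) => (W : Set (Fin d ⊕ Fin d → F)))
      SetLike.coe_injective
  let f : TIFam F d m → {W : Submodule F (Fin d ⊕ Fin d → F) // Module.finrank F ↥W = m ∧
        (∀ u ∈ W, ∀ v ∈ W, Cfsg.sympForm d F u v = 0)} := fun v =>
    ⟨Submodule.span F (Set.range v.1), by
      have := finrank_span_eq_card v.2.1
      rw [Fintype.card_fin] at this
      exact this, cntb_span_ti d m v.1 v.2.2⟩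
  have hfib : ∀ W : {W : Submodule F (Fin d ⊕ Fin d → F) // Module.finrank F ↥W = m ∧
        (∀ u ∈ W, ∀ v ∈ W, Cfsg.sympForm d F u v = 0)},
      Nat.card {x : TIFam F d m // f x = W} =
        ∏ j ∈ Finset.range m, (Fintype.card F ^ m - Fintype.card F ^ j) := by
    intro W
    have hmem : ∀ (x : TIFam F d m), f x = W → ∀ a, x.1 a ∈ W.1 := by
      intro x hx a
      have h1 : Submodule.span F (Set.range x.1) = W.1 := congrArg Subtype.val hx
      rw [← h1]
      exact Submodule.subset_span (Set.mem_range_self a)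
    let e : {x : TIFam F d m // f x = W} ≃ {s : Fin m → W.1 // LinearIndependent F s} :=
      { toFun := fun x => ⟨fun a => ⟨x.1.1 a, hmem x.1 x.2 a⟩, by
          apply LinearIndependent.of_comp W.1.subtype
          exact x.1.2.1⟩
        invFun := fun s => ⟨⟨fun a => (s.1 a : Fin d ⊕ Fin d → F),
            s.2.map' W.1.subtype (Submodule.ker_subtype _),
            fun a b => W.2.2 _ (s.1 a).2 _ (s.1 b).2⟩, by
          apply Subtype.ext
          show Submodule.span F (Set.range fun a => (s.1 a : Fin d ⊕ Fin d → F)) = W.1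
          have h1 : Submodule.span F (Set.range s.1) = ⊤ := by
            apply s.2.span_eq_top_of_card_eq_finrank'
            rw [Fintype.card_fin, W.2.1]
          have h2 : (Set.range fun a => (s.1 a : Fin d ⊕ Fin d → F)) =
              W.1.subtype '' (Set.range s.1) := by
            rw [← Set.range_comp]
            rfl
          rw [h2, Submodule.span_image, h1, Submodule.map_top, Submodule.range_subtype]⟩
        left_inv := fun x => by
          apply Subtype.ext
          apply Subtype.ext
          rfl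
        right_inv := fun s => by
          apply Subtype.ext
          rfl }
    rw [Nat.card_congr e, card_linearIndependent (le_of_eq W.2.1.symm), W.2.1,
      ← Finset.prod_range (fun j => Fintype.card F ^ m - Fintype.card F ^ j)]
  have hfinW : Finite {W : Submodule F (Fin d ⊕ Fin d → F) // Module.finrank F ↥W = m ∧
        (∀ u ∈ W, ∀ v ∈ W, Cfsg.sympForm d F u v = 0)} := inferInstance
  letI : Fintype {W : Submodule F (Fin d ⊕ Fin d → F) // Module.finrank F ↥W = m ∧
        (∀ u ∈ W, ∀ v ∈ W, Cfsg.sympForm d F u v = 0)} := Fintype.ofFinite _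
  rw [← Nat.card_congr (Equiv.sigmaFiberEquiv f), Nat.card_sigma]
  simp_rw [hfib]
  rw [Finset.sum_const, Finset.card_univ, Nat.card_eq_fintype_card, smul_eq_mul]

end Cfsg.Agent.Helper41.TI5955
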