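import Mathlib
import Cfsg.Agent.Helper13.TLDefs

set_option autoImplicit false

/-! CALL S5954: auxiliary lemma for UDIAG / UIRR (helper41): a nonisotropic vector. -/

namespace Cfsg.Agent.Helper41.TI5954

open Module Polynomial
open Cfsg.Agent.Helper13.TIu Cfsg.Agent.Helper13.TIsp

section geom

variable {F : Type*} [Field F] {σ : F →+* F} {V : Type*} [AddCommGroup V] [Module F V]
  (B : V →ₛₗ[σ] V →ₗ[F] F)

/-- a nonzero nondegenerate subspace has a nonisotropic vector. -/
theorem uaux_noniso (hσne : σ ≠ RingHom.id F) (hS : B.IsSymm)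
    (W : Submodule F V) (hW : UNd B W) (hW0 : W ≠ ⊥) : ∃ v ∈ W, B v v ≠ 0 := by
  by_contra hcon
  push_neg at hcon
  obtain ⟨c, hc⟩ : ∃ c : F, σ c ≠ c := by
    by_contra h
    push_neg at h
    exact hσne (RingHom.ext fun a => by rw [h a]; rfl)
  have hpol : ∀ u ∈ W, ∀ v ∈ W, B u v + B v u = 0 := by
    intro u hu v hv
    have h := hcon (u + v) (W.add_mem hu hv)
    simp only [map_add, LinearMap.add_apply, hcon u hu, hcon v hv, zero_add, add_zero] at h
    linear_combination h
  have hzero : ∀ u ∈ W, ∀ v ∈ W, B u v = 0 := by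
    intro u hu v hv
    have h1 := hpol u hu v hv
    have h2 := hpol (c • u) (W.smul_mem c hu) v hv
    rw [LinearMap.map_smulₛₗ, LinearMap.smul_apply, map_smul, smul_eq_mul, smul_eq_mul] at h2
    have h3 : B v u = - B u v := by linear_combination h1
    rw [h3] at h2
    have h4 : (σ c - c) * B u v = 0 := by linear_combination h2
    rcases mul_eq_zero.mp h4 with h5 | h5
    · exact absurd (sub_eq_zero.mp h5) hc
    · exact h5
  obtain ⟨u, hu, hu0⟩ := Submodule.exists_mem_ne_zero_of_ne_bot hW0
  exact hu0 (hW u hu (fun w hw => hzero u hu w hw))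

end geom

end Cfsg.Agent.Helper41.TI5954
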