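import Mathlib
import Cfsg.Agent.Helper13.TLDefs

set_option autoImplicit false

/-! CALL S5954 piece UPERP (helper41). -/

namespace Cfsg.Agent.Helper41.TI5954

open Module Polynomial
open Cfsg.Agent.Helper13.TIu Cfsg.Agent.Helper13.TIsp

section geom

variable {F : Type*} [Field F] {σ : F →+* F} {V : Type*} [AddCommGroup V] [Module F V]
  [FiniteDimensional F V] (B : V →ₛₗ[σ] V →ₗ[F] F)

omit [FiniteDimensional F V] in
theorem uperp_pow_mem (T : Module.End F V) (W : Submodule F V) (hWT : W.map T ≤ W) (k : ℕ) :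
    ∀ w ∈ W, (T ^ k) w ∈ W := by
  induction k with
  | zero => intro w hw; simpa using hw
  | succ k ih =>
    intro w hw
    rw [pow_succ', Module.End.mul_apply]
    exact hWT ⟨_, ih w hw, rfl⟩

/-- the perp of `W` inside `D` (no nondegeneracy needed for the inequality). -/
theorem uperp_orth (D W : Submodule F V) :
    ∃ P : Submodule F V, (∀ v, v ∈ P ↔ v ∈ D ∧ ∀ w ∈ W, B w v = 0) ∧
      finrank F D ≤ finrank F P + finrank F W := by
  classical
  let b := Module.finBasis F W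
  let Ψ : V →ₗ[F] (Fin (finrank F W) → F) := LinearMap.pi (fun i => B (b i : V))
  have hmem : ∀ v, v ∈ LinearMap.ker Ψ ↔ ∀ w ∈ W, B w v = 0 := by
    intro v
    rw [LinearMap.mem_ker]
    constructor
    · intro h w hw
      have hi : ∀ i, B (b i : V) v = 0 := fun i => by
        have := congrFun h i
        simpa [Ψ] using this
      have hw' : w = ∑ i, (b.repr ⟨w, hw⟩ i) • (b i : V) := by
        have h0 := congrArg Subtype.val (b.sum_repr ⟨w, hw⟩)
        rw [Submodule.coe_sum] at h0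
        simp only [Submodule.coe_smul] at h0
        exact h0.symm
      rw [hw', map_sum, LinearMap.sum_apply]
      apply Finset.sum_eq_zero
      intro i _
      rw [LinearMap.map_smulₛₗ, LinearMap.smul_apply, hi i, smul_zero]
    · intro h
      funext i
      simpa [Ψ] using h (b i : V) (b i).2
  refine ⟨D ⊓ LinearMap.ker Ψ, fun v => ?_, ?_⟩
  · rw [Submodule.mem_inf, hmem]
  · have h1 := LinearMap.finrank_range_add_finrank_ker (Ψ ∘ₗ D.subtype)
    have h2 : LinearMap.ker (Ψ ∘ₗ D.subtype) = (LinearMap.ker Ψ).comap D.subtype := by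
      ext x
      simp
    have h3 : finrank F ((LinearMap.ker Ψ).comap D.subtype) =
        finrank F (D ⊓ LinearMap.ker Ψ : Submodule F V) := by
      rw [← Submodule.finrank_map_subtype_eq D ((LinearMap.ker Ψ).comap D.subtype),
        Submodule.map_comap_subtype]
    have h4 : finrank F (LinearMap.range (Ψ ∘ₗ D.subtype)) ≤ finrank F W := by
      have := Submodule.finrank_le (LinearMap.range (Ψ ∘ₗ D.subtype))
      rwa [Module.finrank_fin_fun] at this
    rw [h2, h3] at h1
    omega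

/-- UPERP: the perp of a nondegenerate invariant `M₁` inside a nondegenerate invariant `M`
(mirror `nd_perp` / `ti_orth`). -/
theorem u_perp (hσ2 : ∀ a, σ (σ a) = a) (hS : B.IsSymm) (T : Module.End F V) (hT : UPres B T)
    (r : ℕ) (hr0 : 0 < r) (hTr : T ^ r = 1) (M M₁ : Submodule F V) (hM : UNd B M)
    (hM₁ : UNd B M₁) (hle : M₁ ≤ M) (hMT : M.map T ≤ M) (hM₁T : M₁.map T ≤ M₁) :
    ∃ P : Submodule F V, P ≤ M ∧ P.map T ≤ P ∧ UNd B P ∧ M₁ ⊓ P = ⊥ ∧ M₁ ⊔ P = M ∧
      (∀ u ∈ M₁, ∀ v ∈ P, B u v = 0) ∧ (∀ u ∈ P, ∀ v ∈ M₁, B u v = 0) ∧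
      finrank F P + finrank F M₁ = finrank F M := by
  have hinv : ∀ v, T ((T ^ (r - 1)) v) = v := by
    intro v
    have h : T * T ^ (r - 1) = 1 := by
      rw [← pow_succ', Nat.sub_add_cancel hr0, hTr]
    have h2 := congrArg (fun S : Module.End F V => S v) h
    simpa using h2
  obtain ⟨P, hP, hdim⟩ := uperp_orth B M M₁
  have hPM : P ≤ M := fun v hv => ((hP v).mp hv).1
  have hoP : ∀ u ∈ M₁, ∀ v ∈ P, B u v = 0 := fun u hu v hv => ((hP v).mp hv).2 u hu
  have hPo : ∀ u ∈ P, ∀ v ∈ M₁, B u v = 0 := fun u hu v hv => by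
    rw [← hS.eq v u, hoP v hv u hu, map_zero]
  have hdisj : M₁ ⊓ P = ⊥ := by
    rw [eq_bot_iff]
    rintro v ⟨hv1, hv2⟩
    exact (Submodule.mem_bot F).mpr (hM₁ v hv1 (fun w hw => hPo v hv2 w hw))
  have hsupdim : finrank F (M₁ ⊔ P : Submodule F V) = finrank F M₁ + finrank F P := by
    have h := Submodule.finrank_sup_add_finrank_inf_eq M₁ P
    rw [hdisj, finrank_bot] at h
    omega
  have hsuple : finrank F (M₁ ⊔ P : Submodule F V) ≤ finrank F M :=
    Submodule.finrank_mono (sup_le hle hPM)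
  have hsup : M₁ ⊔ P = M := by
    apply Submodule.eq_of_le_of_finrank_eq (sup_le hle hPM)
    omega
  refine ⟨P, hPM, ?_, ?_, hdisj, hsup, hoP, hPo, by omega⟩
  · rintro _ ⟨v, hv, rfl⟩
    obtain ⟨hvM, hvW⟩ := (hP v).mp hv
    refine (hP _).mpr ⟨hMT ⟨v, hvM, rfl⟩, fun w hw => ?_⟩
    have h1 : B w (T v) = B (T ((T ^ (r - 1)) w)) (T v) := by rw [hinv]
    rw [h1, hT]
    exact hvW _ (uperp_pow_mem T M₁ hM₁T (r - 1) w hw)
  · intro v hv h
    apply hM v (hPM hv)
    intro w hw
    rw [← hsup] at hw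
    obtain ⟨x, hx, y, hy, rfl⟩ := Submodule.mem_sup.mp hw
    rw [map_add, hPo v hv x hx, h y hy, add_zero]

end geom

end Cfsg.Agent.Helper41.TI5954
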