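import Mathlib
import Cfsg.Agent.Helper13.TLDefs
import Cfsg.Agent.Helper41.TLUPERP

set_option autoImplicit false

/-! CALL S5954 piece UFIX (helper41). -/

namespace Cfsg.Agent.Helper41.TI5954

open Module Polynomial
open Cfsg.Agent.Helper13.TIu Cfsg.Agent.Helper13.TIsp

section geom

variable {F : Type*} [Field F] {σ : F →+* F} {V : Type*} [AddCommGroup V] [Module F V]
  [FiniteDimensional F V] (B : V →ₛₗ[σ] V →ₗ[F] F)

omit [FiniteDimensional F V] in
theorem ufix_pow_pres (T : Module.End F V) (hT : UPres B T) (k : ℕ) :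
    ∀ u v, B ((T ^ k) u) ((T ^ k) v) = B u v := by
  induction k with
  | zero => intro u v; simp
  | succ k ih =>
    intro u v
    rw [pow_succ', Module.End.mul_apply, Module.End.mul_apply, hT, ih]

omit [FiniteDimensional F V] in
theorem ufix_pow_fixed (T : Module.End F V) (u : V) (hu : T u = u) (k : ℕ) : (T ^ k) u = u := by
  induction k with
  | zero => simp
  | succ k ih => rw [pow_succ, Module.End.mul_apply, hu, ih]

omit [FiniteDimensional F V] in
theorem ufix_sum_fixed (T : Module.End F V) (r : ℕ) (hTr : T ^ r = 1) (w : V) :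
    T (∑ j ∈ Finset.range r, (T ^ j) w) = ∑ j ∈ Finset.range r, (T ^ j) w := by
  rw [map_sum]
  have h1 : ∀ j, T ((T ^ j) w) = (T ^ (j + 1)) w := fun j => by
    rw [pow_succ', Module.End.mul_apply]
  simp_rw [h1]
  rcases r with _ | r'
  · simp
  · rw [Finset.sum_range_succ, Finset.sum_range_succ' (fun j => (T ^ j) w), hTr, pow_zero]

/-- UFIX: fixed part and its perp inside a nondegenerate invariant `N`, `r` invertible in `F`.
(For `u` fixed and `w ∈ N`: `B u w = B u (e w)` with `e = (1/r) ∑ T ^ j`, so the fixed part is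
nondegenerate; then its perp in `N` has no fixed vectors.  Compare `ti_fix`.) -/
theorem u_fix (hσ2 : ∀ a, σ (σ a) = a) (hS : B.IsSymm) (T : Module.End F V) (hT : UPres B T)
    (r : ℕ) (hr0 : 0 < r) (hrF : (r : F) ≠ 0) (hTr : T ^ r = 1) (N : Submodule F V)
    (hNT : N.map T ≤ N) (hN : UNd B N) :
    UNd B (N ⊓ LinearMap.ker (T - 1)) ∧
    ∃ P : Submodule F V, P ≤ N ∧ P.map T ≤ P ∧ UNd B P ∧ P ⊓ LinearMap.ker (T - 1) = ⊥ ∧
      (N ⊓ LinearMap.ker (T - 1)) ⊔ P = N ∧
      (∀ u ∈ N ⊓ LinearMap.ker (T - 1), ∀ v ∈ P, B u v = 0) ∧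
      (∀ u ∈ P, ∀ v ∈ N ⊓ LinearMap.ker (T - 1), B u v = 0) ∧
      finrank F P + finrank F (N ⊓ LinearMap.ker (T - 1) : Submodule F V) = finrank F N := by
  have hmemk : ∀ u, u ∈ LinearMap.ker (T - 1) ↔ T u = u := by
    intro u
    rw [LinearMap.mem_ker, LinearMap.sub_apply, Module.End.one_apply, sub_eq_zero]
  have hnd0 : UNd B (N ⊓ LinearMap.ker (T - 1)) := by
    intro u hu h
    obtain ⟨huN, huk0⟩ := hu
    have huk : T u = u := (hmemk u).mp huk0
    apply hN u huN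
    intro w hw
    have hsumN : (∑ j ∈ Finset.range r, (T ^ j) w) ∈ N :=
      Submodule.sum_mem _ (fun j _ => uperp_pow_mem T N hNT j w hw)
    have hsumk : (∑ j ∈ Finset.range r, (T ^ j) w) ∈ LinearMap.ker (T - 1) := by
      rw [hmemk]
      exact ufix_sum_fixed T r hTr w
    have h1 := h _ ⟨hsumN, hsumk⟩
    rw [map_sum] at h1
    have h2 : ∀ j ∈ Finset.range r, B u ((T ^ j) w) = B u w := by
      intro j _
      have h3 := ufix_pow_pres B T hT j u w
      rw [ufix_pow_fixed T u huk j] at h3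
      exact h3
    rw [Finset.sum_congr rfl h2, Finset.sum_const, Finset.card_range, nsmul_eq_mul] at h1
    rcases mul_eq_zero.mp h1 with h4 | h4
    · exact absurd h4 hrF
    · exact h4
  refine ⟨hnd0, ?_⟩
  have hinvT : (N ⊓ LinearMap.ker (T - 1)).map T ≤ N ⊓ LinearMap.ker (T - 1) := by
    rintro _ ⟨v, ⟨hvN, hvk0⟩, rfl⟩
    have hvk : T v = v := (hmemk v).mp hvk0
    rw [hvk]
    exact ⟨hvN, hvk0⟩
  obtain ⟨P, hPN, hPT, hPnd, hdisj, hsup, ho1, ho2, hdim⟩ :=
    u_perp B hσ2 hS T hT r hr0 hTr N (N ⊓ LinearMap.ker (T - 1)) hN hnd0 inf_le_left hNT hinvT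
  refine ⟨P, hPN, hPT, hPnd, ?_, hsup, ho1, ho2, hdim⟩
  rw [eq_bot_iff]
  rintro v ⟨hvP, hvk⟩
  have : v ∈ (N ⊓ LinearMap.ker (T - 1)) ⊓ P := ⟨⟨hPN hvP, hvk⟩, hvP⟩
  rw [hdisj] at this
  exact this

end geom

end Cfsg.Agent.Helper41.TI5954
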