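import Mathlib
import Cfsg.Agent.Helper13.TLDefs
import Cfsg.Agent.Helper41.TLUFIX
import Cfsg.Agent.Helper41.TLUAUX

set_option autoImplicit false

/-! CALL S5954 piece UDIAG (helper41). -/

namespace Cfsg.Agent.Helper41.TI5954

open Module Polynomial
open Cfsg.Agent.Helper13.TIu Cfsg.Agent.Helper13.TIsp

section geom2

variable {F : Type*} [Field F] {σ : F →+* F} {V : Type*} [AddCommGroup V] [Module F V]
  [FiniteDimensional F V] (B : V →ₛₗ[σ] V →ₗ[F] F)

omit [FiniteDimensional F V] in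
theorem udiag_eig (T : Module.End F V) (E : Submodule F V) (hET : E.map T ≤ E) (S : Finset F) :
    ∀ v ∈ E, v ≠ 0 → aeval T (∏ ζ ∈ S, (X - C ζ)) v = 0 →
      ∃ ζ ∈ S, ∃ u ∈ E, u ≠ 0 ∧ T u = ζ • u := by
  classical
  induction S using Finset.induction_on with
  | empty =>
    intro v _ hv0 h
    simp at h
    exact absurd h hv0
  | insert a S ha ih =>
    intro v hvE hv0 h
    rw [Finset.prod_insert ha, mul_comm, map_mul, Module.End.mul_apply] at h
    have hw : aeval T (X - C a) v = T v - a • v := by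
      simp [Module.algebraMap_end_apply]
    by_cases hw0 : T v - a • v = 0
    · exact ⟨a, Finset.mem_insert_self a S, v, hvE, hv0, sub_eq_zero.mp hw0⟩
    · rw [hw] at h
      obtain ⟨ζ, hζ, u, hu, hu0, hTu⟩ := ih (T v - a • v)
        (E.sub_mem (hET ⟨v, hvE, rfl⟩) (E.smul_mem a hvE)) hw0 h
      exact ⟨ζ, Finset.mem_insert_of_mem hζ, u, hu, hu0, hTu⟩

/-- UDIAG (cases B, C; uses UISO): `T ^ r = 1` with all `r`-th roots of unity in `F` and of norm one.
Eigenvectors for different eigenvalues are orthogonal (`B u v = σ ζ * ζ' * B u v`, `σ ζ = ζ⁻¹`); for a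
nonisotropic `v ∈ E` and the spectral projections `e_j = (1/r) ∑_k ω ^ (-j k) T ^ k`:
`B v v = ∑_j B (e_j v) (e_j v)`, so some eigenvector `e_j v ∈ E` is nonisotropic; `Z = span {e_j v}`. -/
theorem uatom_diag (hσ2 : ∀ a, σ (σ a) = a) (hσne : σ ≠ RingHom.id F) (hS : B.IsSymm)
    (T : Module.End F V) (hT : UPres B T) (r : ℕ) [Fact r.Prime] (hrF : (r : F) ≠ 0)
    (hTr : T ^ r = 1) (ω : F) (hω : ω ^ r = 1) (hω1 : ω ≠ 1)
    (hnorm : ∀ ζ : F, ζ ^ r = 1 → σ ζ * ζ = 1) (E : Submodule F V) (hET : E.map T ≤ E)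
    (hE : UNd B E) (hE0 : E ≠ ⊥) :
    ∃ Z : Submodule F V, Z ≤ E ∧ Z.map T ≤ Z ∧ UNd B Z ∧ finrank F Z = 1 := by
  classical
  have hr : r.Prime := Fact.out
  have hprim : IsPrimitiveRoot ω r := by
    have h := IsPrimitiveRoot.orderOf ω
    rwa [orderOf_eq_prime hω hω1] at h
  have hfac := X_pow_sub_one_eq_prod hr.pos hprim
  obtain ⟨v0, hv0E, hv00⟩ := Submodule.exists_mem_ne_zero_of_ne_bot hE0
  have hkill : aeval T (∏ ζ ∈ nthRootsFinset r (1 : F), (X - C ζ)) v0 = 0 := by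
    rw [← hfac]
    simp [hTr]
  obtain ⟨ζ, hζS, u, huE, hu0, hTu⟩ := udiag_eig T E hET _ v0 hv0E hv00 hkill
  have hζr : ζ ^ r = 1 := (mem_nthRootsFinset hr.pos 1).mp hζS
  have hζ0 : ζ ≠ 0 := by
    rintro rfl
    rw [zero_pow hr.ne_zero] at hζr
    exact zero_ne_one hζr
  have hinvr : (ζ⁻¹) ^ r = 1 := by rw [inv_pow, hζr, inv_one]
  have hnζ := hnorm ζ⁻¹ hinvr
  have hT'pres : UPres B (ζ⁻¹ • T) := by
    intro x y
    have h1 : B (ζ⁻¹ • T x) (ζ⁻¹ • T y) = σ ζ⁻¹ * (ζ⁻¹ * B (T x) (T y)) := by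
      rw [LinearMap.map_smulₛₗ B, LinearMap.smul_apply, map_smul, smul_eq_mul, smul_eq_mul]
    show B (ζ⁻¹ • T x) (ζ⁻¹ • T y) = B x y
    rw [h1, hT x y, ← mul_assoc, hnζ, one_mul]
  have hT'r : (ζ⁻¹ • T) ^ r = 1 := by
    rw [_root_.smul_pow, hinvr, hTr, one_smul]
  have hET' : E.map (ζ⁻¹ • T) ≤ E := by
    rintro _ ⟨x, hx, rfl⟩
    rw [LinearMap.smul_apply]
    exact E.smul_mem _ (hET ⟨x, hx, rfl⟩)
  have hmemk : ∀ x, x ∈ LinearMap.ker (ζ⁻¹ • T - 1) ↔ T x = ζ • x := by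
    intro x
    rw [LinearMap.mem_ker, LinearMap.sub_apply, Module.End.one_apply, sub_eq_zero,
      LinearMap.smul_apply]
    constructor
    · intro h
      have h1 := congrArg (fun y => ζ • y) h
      simp only [smul_smul, mul_inv_cancel₀ hζ0, one_smul] at h1
      exact h1
    · intro h
      rw [h, smul_smul, inv_mul_cancel₀ hζ0, one_smul]
  have hnd := (u_fix B hσ2 hS (ζ⁻¹ • T) hT'pres r hr.pos hrF hT'r E hET' hE).1
  have hne : E ⊓ LinearMap.ker (ζ⁻¹ • T - 1) ≠ ⊥ := by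
    intro h
    have hmem : u ∈ E ⊓ LinearMap.ker (ζ⁻¹ • T - 1) := ⟨huE, (hmemk u).mpr hTu⟩
    rw [h] at hmem
    exact hu0 ((Submodule.mem_bot F).mp hmem)
  obtain ⟨v, hv, hvv⟩ := uaux_noniso B hσne hS _ hnd hne
  have hvE : v ∈ E := hv.1
  have hTv : T v = ζ • v := (hmemk v).mp hv.2
  have hv0 : v ≠ 0 := by
    rintro rfl
    simp at hvv
  refine ⟨Submodule.span F {v}, ?_, ?_, ?_, finrank_span_singleton hv0⟩
  · rw [Submodule.span_le]
    intro x hx
    rw [Set.mem_singleton_iff.mp hx]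
    exact hvE
  · rw [Submodule.map_span_le]
    intro x hx
    rw [Set.mem_singleton_iff.mp hx, hTv]
    exact Submodule.smul_mem _ _ (Submodule.mem_span_singleton_self v)
  · intro x hx h
    obtain ⟨c, rfl⟩ := Submodule.mem_span_singleton.mp hx
    have h1 := h v (Submodule.mem_span_singleton_self v)
    rw [LinearMap.map_smulₛₗ, LinearMap.smul_apply, smul_eq_mul] at h1
    rcases mul_eq_zero.mp h1 with h2 | h2
    · rw [map_eq_zero] at h2
      rw [h2, zero_smul]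
    · exact absurd h2 hvv

end geom2

end Cfsg.Agent.Helper41.TI5954
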