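import Mathlib
import Cfsg.Agent.Helper13.TLDefs
import Cfsg.Agent.Helper41.TLUPERP
import Cfsg.Agent.Helper41.TLUAUX

set_option autoImplicit false

/-! CALL S5954 piece UIRR (helper41). -/

namespace Cfsg.Agent.Helper41.TI5954

open Module Polynomial
open Cfsg.Agent.Helper13.TIu Cfsg.Agent.Helper13.TIsp

section geom2

variable {F : Type*} [Field F] {σ : F →+* F} {V : Type*} [AddCommGroup V] [Module F V]
  [FiniteDimensional F V] (B : V →ₛₗ[σ] V →ₗ[F] F)

/-- UIRR (cases C, D; uses UISO, `kmod_sub`, `cyc_dim_le`): `f` irreducible killing `E`: the cyclic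
subspace `Z` of a nonisotropic `v ∈ E` has dimension `natDegree f`, and its radical (invariant, proper)
is zero. -/
theorem uatom_irr (hσ2 : ∀ a, σ (σ a) = a) (hσne : σ ≠ RingHom.id F) (hS : B.IsSymm)
    (T : Module.End F V) (hT : UPres B T) (n : ℕ) (hn : 0 < n) (hTn : T ^ n = 1) (f : F[X])
    (hf : Irreducible f) (E : Submodule F V) (hET : E.map T ≤ E) (hE : UNd B E) (hE0 : E ≠ ⊥)
    (hfE : ∀ v ∈ E, aeval T f v = 0) :
    ∃ Z : Submodule F V, Z ≤ E ∧ Z.map T ≤ Z ∧ UNd B Z ∧ finrank F Z = f.natDegree := by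
  classical
  obtain ⟨v, hvE, hvv⟩ := uaux_noniso B hσne hS E hE hE0
  have hv0 : v ≠ 0 := by
    rintro rfl
    simp at hvv
  set Z : Submodule F V := Submodule.span F (Set.range fun j : ℕ => (T ^ j) v) with hZ
  have hvZ : v ∈ Z := Submodule.subset_span ⟨0, by simp⟩
  have hZE : Z ≤ E := by
    rw [hZ, Submodule.span_le]
    rintro _ ⟨j, rfl⟩
    exact uperp_pow_mem T E hET j v hvE
  have hZT : Z.map T ≤ Z := by
    rw [hZ, Submodule.map_span_le]
    rintro _ ⟨j, rfl⟩
    apply Submodule.subset_span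
    refine ⟨j + 1, ?_⟩
    show (T ^ (j + 1)) v = T ((T ^ j) v)
    rw [pow_succ', Module.End.mul_apply]
  have hZT' : ∀ w ∈ Z, T w ∈ Z := fun w hw => hZT ⟨w, hw, rfl⟩
  have hfZ : ∀ w ∈ Z, aeval T f w = 0 := fun w hw => hfE w (hZE hw)
  have hdvd := (Cfsg.Agent.Helper42.SpStruct.kmod_sub T f hf Z hZT' hfZ).1
  have hf0 : f ≠ 0 := hf.ne_zero
  have hmon : (f * C f.leadingCoeff⁻¹).Monic := monic_mul_leadingCoeff_inv hf0
  have hdeg : (f * C f.leadingCoeff⁻¹).natDegree = f.natDegree :=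
    natDegree_mul_leadingCoeff_inv f hf0
  have hkill : aeval T (f * C f.leadingCoeff⁻¹) v = 0 := by
    rw [map_mul, Module.End.mul_apply, aeval_C, Module.algebraMap_end_apply, map_smul,
      hfE v hvE, smul_zero]
  have hle : finrank F Z ≤ f.natDegree := by
    have h := Cfsg.Agent.Helper39.TI5961.cyc_dim_le T _ hmon v hkill
    rwa [hdeg] at h
  have hpos : 0 < finrank F Z := by
    rw [Module.finrank_pos_iff_exists_ne_zero]
    exact ⟨⟨v, hvZ⟩, fun h => hv0 (congrArg Subtype.val h)⟩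
  have hdim : finrank F Z = f.natDegree := le_antisymm hle (Nat.le_of_dvd hpos hdvd)
  let R : Submodule F V :=
    { carrier := {z | z ∈ Z ∧ ∀ w ∈ Z, B w z = 0}
      add_mem' := fun {a b} ha hb => ⟨Z.add_mem ha.1 hb.1, fun w hw => by
        rw [map_add, ha.2 w hw, hb.2 w hw, add_zero]⟩
      zero_mem' := ⟨Z.zero_mem, fun w _ => map_zero _⟩
      smul_mem' := fun c a ha => ⟨Z.smul_mem c ha.1, fun w hw => by
        rw [map_smul, ha.2 w hw, smul_zero]⟩ }
  have hRZ : R ≤ Z := fun z hz => hz.1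
  have hinv : ∀ w, T ((T ^ (n - 1)) w) = w := by
    intro w
    have h : T * T ^ (n - 1) = 1 := by rw [← pow_succ', Nat.sub_add_cancel hn, hTn]
    have h2 := congrArg (fun S : Module.End F V => S w) h
    simpa using h2
  have hRT : ∀ z ∈ R, T z ∈ R := by
    intro z hz
    refine ⟨hZT' z hz.1, fun w hw => ?_⟩
    have h1 : B w (T z) = B (T ((T ^ (n - 1)) w)) (T z) := by rw [hinv]
    rw [h1, hT]
    exact hz.2 _ (uperp_pow_mem T Z hZT (n - 1) w hw)
  have hfR : ∀ w ∈ R, aeval T f w = 0 := fun w hw => hfZ w (hRZ hw)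
  have hdvdR := (Cfsg.Agent.Helper42.SpStruct.kmod_sub T f hf R hRT hfR).1
  have hRlt : R < Z := by
    refine lt_of_le_of_ne hRZ ?_
    intro h
    have hvR : v ∈ R := by
      rw [h]
      exact hvZ
    exact hvv (hvR.2 v hvZ)
  have hRdim : finrank F R < f.natDegree := by
    rw [← hdim]
    exact Submodule.finrank_lt_finrank_of_lt hRlt
  have hR0 : finrank F R = 0 := Nat.eq_zero_of_dvd_of_lt hdvdR hRdim
  have hRbot : R = ⊥ := Submodule.finrank_eq_zero.mp hR0
  refine ⟨Z, hZE, hZT, ?_, hdim⟩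
  intro z hz h
  have hzR : z ∈ R := ⟨hz, fun w hw => by rw [← hS.eq z w, h w hw, map_zero]⟩
  rw [hRbot] at hzR
  exact (Submodule.mem_bot F).mp hzR

end geom2

end Cfsg.Agent.Helper41.TI5954
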