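import Mathlib
import Cfsg.Agent.Helper43.QuadFin

/-!
# Piece SymQF of CALL S2700 (helper43): the quadratic form of a symmetric matrix (`2 ≠ 0`)
-/

set_option autoImplicit false

namespace Cfsg.Agent.Helper41

open Matrix Module Cfsg.Agent.Helper43

theorem gasym_symm {F : Type*} [Field F] {n : ℕ} (M : Matrix (Fin n) (Fin n) F) (hM : Mᵀ = M)
    (u v : Fin n → F) : v ⬝ᵥ (M *ᵥ u) = u ⬝ᵥ (M *ᵥ v) := by
  rw [Matrix.dotProduct_mulVec, ← Matrix.mulVec_transpose, hM, dotProduct_comm]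

theorem exists_symQF {F : Type*} [Field F] {n : ℕ} (h2 : (2 : F) ≠ 0)
    (M : Matrix (Fin n) (Fin n) F) (hM : Mᵀ = M) :
    ∃ Q : QuadraticForm F (Fin n → F), (∀ v, Q v = 2⁻¹ * (v ⬝ᵥ (M *ᵥ v))) ∧
      (∀ u v, QuadraticMap.polar Q u v = u ⬝ᵥ (M *ᵥ v)) ∧ (M.det ≠ 0 → PolarNondeg Q) := by
  have hpol : ∀ u v : Fin n → F, QuadraticMap.polar
      (⇑((2⁻¹ : F) • Matrix.toBilin' M).toQuadraticMap) u v = u ⬝ᵥ (M *ᵥ v) := by
    intro u v
    rw [LinearMap.BilinMap.polar_toQuadraticMap]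
    simp only [LinearMap.smul_apply, Matrix.toBilin'_apply', smul_eq_mul]
    rw [gasym_symm M hM u v]
    field_simp
    ring
  refine ⟨((2⁻¹ : F) • Matrix.toBilin' M).toQuadraticMap, ?_, hpol, ?_⟩
  · intro v
    rw [LinearMap.BilinMap.toQuadraticMap_apply]
    simp only [LinearMap.smul_apply, Matrix.toBilin'_apply', smul_eq_mul]
  · intro hdet v hv
    apply Matrix.eq_zero_of_mulVec_eq_zero hdet
    apply dotProduct_eq_zero
    intro w
    have := hv w
    rw [hpol, Matrix.dotProduct_mulVec, ← Matrix.mulVec_transpose, hM] at this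
    exact this

end Cfsg.Agent.Helper41
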