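import Mathlib
import Cfsg.Prelude.Def_GeometricClasses

/-!
# Piece BilSim of CALL S2700 (helper43): the similarity group of a bilinear form in matrix terms
-/

set_option autoImplicit false

namespace Cfsg.Agent.Helper41

open Matrix

theorem gabil_key {F : Type*} [Field F] {ι : Type} [Fintype ι] [DecidableEq ι]
    (G g : Matrix ι ι F) (u v : ι → F) :
    (g *ᵥ u) ⬝ᵥ (G *ᵥ (g *ᵥ v)) = u ⬝ᵥ ((gᵀ * G * g) *ᵥ v) := by
  calc (g *ᵥ u) ⬝ᵥ (G *ᵥ (g *ᵥ v)) = (u ᵥ* gᵀ) ⬝ᵥ (G *ᵥ (g *ᵥ v)) := by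
        rw [Matrix.vecMul_transpose]
    _ = u ⬝ᵥ (gᵀ *ᵥ (G *ᵥ (g *ᵥ v))) := (Matrix.dotProduct_mulVec _ _ _).symm
    _ = u ⬝ᵥ ((gᵀ * G * g) *ᵥ v) := by rw [Matrix.mulVec_mulVec, Matrix.mulVec_mulVec]

theorem mem_sim_iff {F : Type*} [Field F] {ι : Type} [Fintype ι] [DecidableEq ι] [Nonempty ι]
    (G : Matrix ι ι F) (hdet : G.det ≠ 0) (g : GL ι F) :
    g ∈ Cfsg.Geo.similarityGroup (fun u v : ι → F => u ⬝ᵥ (G *ᵥ v)) ↔
      ∃ c : F, (g : Matrix ι ι F)ᵀ * G * (g : Matrix ι ι F) = c • G := by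
  constructor
  · intro h
    change ∃ c : Fˣ, ∀ u v : ι → F, ((g : Matrix ι ι F) *ᵥ u) ⬝ᵥ (G *ᵥ ((g : Matrix ι ι F) *ᵥ v)) =
      (c : F) * (u ⬝ᵥ (G *ᵥ v)) at h
    obtain ⟨c, hc⟩ := h
    refine ⟨(c : F), ?_⟩
    ext i j
    have h1 := hc (Pi.single i 1) (Pi.single j 1)
    rw [gabil_key] at h1
    simpa using h1
  · rintro ⟨c, hc⟩
    have hc0 : c ≠ 0 := by
      rintro rfl
      rw [zero_smul] at hc
      have h1 := congrArg Matrix.det hc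
      rw [Matrix.det_mul, Matrix.det_mul, Matrix.det_transpose, Matrix.det_zero] at h1
      have hg : (g : Matrix ι ι F).det ≠ 0 := by
        have := g.isUnit
        exact ((Matrix.isUnit_iff_isUnit_det _).mp this).ne_zero
      exact mul_ne_zero (mul_ne_zero hg hdet) hg h1
    change ∃ c : Fˣ, ∀ u v : ι → F, ((g : Matrix ι ι F) *ᵥ u) ⬝ᵥ (G *ᵥ ((g : Matrix ι ι F) *ᵥ v)) =
      (c : F) * (u ⬝ᵥ (G *ᵥ v))
    refine ⟨Units.mk0 c hc0, fun u v => ?_⟩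
    rw [gabil_key, hc, Matrix.smul_mulVec, dotProduct_smul, Units.val_mk0, smul_eq_mul]

end Cfsg.Agent.Helper41
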