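import Mathlib
import Cfsg.Agent.Helper27.SameOrderA

set_option autoImplicit false

namespace Cfsg.Agent.Helper41

open Cfsg.Agent.Helper27.SO

set_option maxRecDepth 100000 in
theorem nse_alt6_c2 :
    Fintype.card {g : alternatingGroup (Fin 6) // g ^ 2 = 1 ∧ g ≠ 1} = 45 := by
  decide +kernel

set_option maxRecDepth 100000 in
theorem nse_alt6_c3 :
    Fintype.card {g : alternatingGroup (Fin 6) // g ^ 3 = 1 ∧ g ≠ 1} = 80 := by
  decide +kernel

set_option maxRecDepth 100000 in
theorem nse_alt6_c5 :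
    Fintype.card {g : alternatingGroup (Fin 6) // g ^ 5 = 1 ∧ g ≠ 1} = 144 := by
  decide +kernel

set_option maxRecDepth 100000 in
theorem nse_alt6_c4 :
    Fintype.card {g : alternatingGroup (Fin 6) // g ^ 4 = 1 ∧ g ^ 2 ≠ 1} = 90 := by
  decide +kernel

set_option maxRecDepth 100000 in
theorem nse_alt6_all :
    ∀ g : alternatingGroup (Fin 6), g = 1 ∨ g ^ 2 = 1 ∨ g ^ 3 = 1 ∨ g ^ 4 = 1 ∨ g ^ 5 = 1 := by
  decide +kernel

/-- PIECE ALT6 -/
theorem nse_alt6 :
    ((fun m : ℕ => Nat.card {g : ↥(alternatingGroup (Fin 6)) // orderOf g = m}) ''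
      Set.range (orderOf : ↥(alternatingGroup (Fin 6)) → ℕ)) = {1, 45, 80, 90, 144} := by
  have hp2 : Fact (Nat.Prime 2) := ⟨Nat.prime_two⟩
  have hp3 : Fact (Nat.Prime 3) := ⟨Nat.prime_three⟩
  have hp5 : Fact (Nat.Prime 5) := ⟨Nat.prime_five⟩
  have h1 : Nat.card {g : ↥(alternatingGroup (Fin 6)) // orderOf g = 1} = 1 := by
    rw [Nat.card_eq_one_iff_unique]
    refine ⟨⟨?_⟩, ⟨⟨1, orderOf_one⟩⟩⟩
    rintro ⟨a, ha⟩ ⟨b, hb⟩
    rw [orderOf_eq_one_iff] at ha hb
    exact Subtype.ext (ha.trans hb.symm)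
  have h2 : Nat.card {g : ↥(alternatingGroup (Fin 6)) // orderOf g = 2} = 45 := by
    rw [Nat.card_congr (Equiv.subtypeEquivRight (fun g => orderOf_eq_prime_iff (p := 2))),
      Nat.card_eq_fintype_card]
    exact nse_alt6_c2
  have h3 : Nat.card {g : ↥(alternatingGroup (Fin 6)) // orderOf g = 3} = 80 := by
    rw [Nat.card_congr (Equiv.subtypeEquivRight (fun g => orderOf_eq_prime_iff (p := 3))),
      Nat.card_eq_fintype_card]
    exact nse_alt6_c3
  have h5 : Nat.card {g : ↥(alternatingGroup (Fin 6)) // orderOf g = 5} = 144 := by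
    rw [Nat.card_congr (Equiv.subtypeEquivRight (fun g => orderOf_eq_prime_iff (p := 5))),
      Nat.card_eq_fintype_card]
    exact nse_alt6_c5
  have h4iff : ∀ g : ↥(alternatingGroup (Fin 6)), orderOf g = 4 ↔ g ^ 4 = 1 ∧ g ^ 2 ≠ 1 := by
    intro g
    constructor
    · intro h
      refine ⟨by rw [← h, pow_orderOf_eq_one], fun h2 => ?_⟩
      have := orderOf_dvd_of_pow_eq_one h2
      rw [h] at this
      omega
    · rintro ⟨h4, h2⟩
      exact orderOf_eq_prime_pow (p := 2) (n := 1) (by simpa using h2) (by simpa using h4)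
  have h4 : Nat.card {g : ↥(alternatingGroup (Fin 6)) // orderOf g = 4} = 90 := by
    rw [Nat.card_congr (Equiv.subtypeEquivRight h4iff), Nat.card_eq_fintype_card]
    exact nse_alt6_c4
  have hall : ∀ g : ↥(alternatingGroup (Fin 6)), orderOf g ∈ ({1, 2, 3, 4, 5} : Set ℕ) := by
    intro g
    rcases nse_alt6_all g with h | h | h | h | h
    · rw [h, orderOf_one]; simp
    · rcases (Nat.dvd_prime Nat.prime_two).mp (orderOf_dvd_of_pow_eq_one h) with h' | h' <;>
        simp [h']
    · rcases (Nat.dvd_prime Nat.prime_three).mp (orderOf_dvd_of_pow_eq_one h) with h' | h' <;>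
        simp [h']
    · have := orderOf_dvd_of_pow_eq_one h
      have h4 : (4 : ℕ) = 2 ^ 2 := by norm_num
      rw [h4] at this
      obtain ⟨k, hk, hk'⟩ := (Nat.dvd_prime_pow Nat.prime_two).mp this
      interval_cases k <;> simp [hk']
    · rcases (Nat.dvd_prime Nat.prime_five).mp (orderOf_dvd_of_pow_eq_one h) with h' | h' <;>
        simp [h']
  have hex : ∀ m : ℕ, Nat.card {g : ↥(alternatingGroup (Fin 6)) // orderOf g = m} ≠ 0 →
      m ∈ Set.range (orderOf : ↥(alternatingGroup (Fin 6)) → ℕ) := by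
    intro m hm
    have hne : Nonempty {g : ↥(alternatingGroup (Fin 6)) // orderOf g = m} := by
      by_contra hcon
      rw [not_nonempty_iff] at hcon
      exact hm Nat.card_of_isEmpty
    obtain ⟨⟨g, hg⟩⟩ := hne
    exact ⟨g, hg⟩
  have hrange : Set.range (orderOf : ↥(alternatingGroup (Fin 6)) → ℕ) = {1, 2, 3, 4, 5} := by
    apply Set.Subset.antisymm
    · rintro _ ⟨g, rfl⟩
      exact hall g
    · intro m hm
      simp only [Set.mem_insert_iff, Set.mem_singleton_iff] at hm
      rcases hm with rfl | rfl | rfl | rfl | rfl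
      · exact hex 1 (by rw [h1]; norm_num)
      · exact hex 2 (by rw [h2]; norm_num)
      · exact hex 3 (by rw [h3]; norm_num)
      · exact hex 4 (by rw [h4]; norm_num)
      · exact hex 5 (by rw [h5]; norm_num)
  rw [hrange]
  simp only [Set.image_insert_eq, Set.image_singleton, h1, h2, h3, h4, h5]

end Cfsg.Agent.Helper41
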