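import Mathlib
import Cfsg.Agent.Helper9.OrdTools
import Cfsg.Agent.S1001

/-! CALL S0496 (helper27), piece O720A: a simple group of order 720 has 10 or 40 Sylow
3-subgroups. -/

set_option autoImplicit false

namespace Cfsg.Agent.Helper41

open Subgroup Cfsg.Agent.Helper9

/-- An element of order 5 normalizing a subgroup of order 9 centralizes a nontrivial element
of it. -/
theorem o1092_fix5 {G : Type*} [Group G] (P : Subgroup G) (hP : Nat.card P = 9) (y : G)
    (hy : orderOf y = 5) (hn : y ∈ normalizer (P : Set G)) :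
    ∃ x ∈ P, x ≠ 1 ∧ y * x * y⁻¹ = x := by
  classical
  haveI : Finite P := Nat.finite_of_card_ne_zero (by omega)
  haveI : Fintype P := Fintype.ofFinite P
  haveI : Fact (Nat.Prime 5) := ⟨by norm_num⟩
  let f : Function.End P :=
    fun x => ⟨y * x * y⁻¹, (Subgroup.mem_normalizer_iff.mp hn x).mp x.2⟩
  have hpow : ∀ n : ℕ, ∀ x : P, ((f ^ n) x : G) = y ^ n * x * (y ^ n)⁻¹ := by
    intro n
    induction n with
    | zero => intro x; rw [pow_zero, pow_zero, Function.End.one_def]; simp
    | succ n ih =>
      intro x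
      rw [pow_succ', Function.End.mul_def]
      show y * ((f ^ n) x : G) * y⁻¹ = _
      rw [ih, pow_succ', mul_inv_rev]
      group
  have hf : f ^ 5 ^ 1 = 1 := by
    funext x
    apply Subtype.ext
    rw [pow_one, hpow, ← hy, pow_orderOf_eq_one, Function.End.one_def]
    simp
  have hmod := Equiv.Perm.card_fixedPoints_modEq (p := 5) (n := 1) hf
  rw [← Nat.card_eq_fintype_card, hP] at hmod
  by_contra hcon
  push_neg at hcon
  have hall : ∀ x : Function.fixedPoints f, x = ⟨1, by
      show f 1 = 1
      apply Subtype.ext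
      show y * ((1 : P) : G) * y⁻¹ = ((1 : P) : G)
      simp⟩ := by
    intro x
    apply Subtype.ext
    by_contra hx
    have hx1 : ((x : P) : G) ≠ 1 := fun h => hx (Subtype.ext h)
    have hfx : f x = x := x.2
    exact hcon _ (x : P).2 hx1 (congrArg Subtype.val hfx)
  have hcard : Fintype.card (Function.fixedPoints f) = 1 :=
    Fintype.card_eq_one_iff.mpr ⟨_, hall⟩
  rw [hcard] at hmod
  exact absurd hmod (by decide)

/-- PIECE O720A (CALL S0496, helper27) -/
theorem o720_n3 {G : Type*} [Group G] [Finite G] [IsSimpleGroup G]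
    (hG : ¬ IsMulCommutative G) (h : Nat.card G = 720) :
    Nat.card (Sylow 3 G) = 10 ∨ Nat.card (Sylow 3 G) = 40 := by
  haveI : Fact (Nat.Prime 3) := ⟨by norm_num⟩
  obtain ⟨P⟩ : Nonempty (Sylow 3 G) := inferInstance
  have hP : Nat.card (P : Subgroup G) = 9 := by
    have := OrdTools.sylow_card (p := 3) 2 80 (by rw [h]; norm_num) (by norm_num) P
    simpa using this
  obtain ⟨hdvd, hmod, hne1, hN⟩ := OrdTools.sylow_num P (by rw [hP]; norm_num)
    (by rw [hP, h]; norm_num)
  have hidx : (P : Subgroup G).index = 80 := by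
    have := (P : Subgroup G).card_mul_index
    rw [hP, h] at this
    omega
  rw [hidx] at hdvd
  rw [h] at hN
  have hle : Nat.card (Sylow 3 G) ≤ 80 := Nat.le_of_dvd (by norm_num) hdvd
  set n := Nat.card (Sylow 3 G) with hn
  have hcases : n = 4 ∨ n = 10 ∨ n = 16 ∨ n = 40 := by
    clear_value n
    interval_cases n <;> omega
  rcases hcases with h4 | h10 | h16 | h40
  · -- index 4
    exfalso
    rw [h4] at hN
    have hidxN : (normalizer ((P : Subgroup G) : Set G)).index = 4 := by
      have := (normalizer ((P : Subgroup G) : Set G)).card_mul_index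
      rw [h] at this
      have h180 : Nat.card (normalizer ((P : Subgroup G) : Set G)) = 180 := by omega
      rw [h180] at this
      omega
    have hne : normalizer ((P : Subgroup G) : Set G) ≠ ⊤ := by
      intro htop
      rw [htop, index_top] at hidxN
      omega
    have := OrdTools.card_dvd_factorial_index _ hne
    rw [hidxN, h] at this
    revert this
    decide
  · exact Or.inl h10
  · -- |N(P)| = 45
    exfalso
    rw [h16] at hN
    have h45 : Nat.card (normalizer ((P : Subgroup G) : Set G)) = 45 := by omega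
    haveI : Fact (Nat.Prime 5) := ⟨by norm_num⟩
    obtain ⟨y', hy'⟩ := exists_prime_orderOf_dvd_card' (G := normalizer ((P : Subgroup G) : Set G))
      5 (by rw [h45]; norm_num)
    have hy : orderOf (y' : G) = 5 := by rw [Subgroup.orderOf_coe]; exact hy'
    obtain ⟨x, hxP, hx1, hfix⟩ := o1092_fix5 (P : Subgroup G) hP (y' : G) hy y'.2
    have hcent := Cfsg.Agent.S1001.result 5 2 4 (by norm_num) (by rw [h]; norm_num) (y' : G) hy
    have hxc : x ∈ centralizer ({(y' : G)} : Set G) := by
      rw [Subgroup.mem_centralizer_iff]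
      intro g hg
      rw [Set.mem_singleton_iff] at hg
      subst hg
      calc (y' : G) * x = (y' : G) * x * (y' : G)⁻¹ * (y' : G) := by group
        _ = x * (y' : G) := by rw [hfix]
    rw [hcent] at hxc
    have h5 : orderOf x ∣ 5 := hy ▸ orderOf_dvd_of_mem_zpowers hxc
    have h9 : orderOf x ∣ 9 := hP ▸ Subgroup.orderOf_dvd_natCard _ hxP
    have h1 : orderOf x ∣ 1 := by
      have := Nat.dvd_gcd h5 h9
      simpa using this
    exact hx1 (orderOf_eq_one_iff.mp (Nat.dvd_one.mp h1))
  · exact Or.inr h40

end Cfsg.Agent.Helper41
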