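import Mathlib
import Cfsg.Agent.Helper9.OrdTools

/-! CALL S0496 (helper27), piece O720C: in a simple group of order 720 with ten Sylow
3-subgroups, distinct Sylow 3-subgroups meet trivially. -/

set_option autoImplicit false

namespace Cfsg.Agent.Helper41

open Subgroup Cfsg.Agent.Helper9

/-- If every Sylow `p`-subgroup containing `D` centralizes `D`, the number of Sylow
`p`-subgroups containing `D` divides `|G|` (they form one orbit under `C(D)`). -/
theorem o720c_orbit {G : Type*} [Group G] [Finite G] {p : ℕ} [Fact p.Prime] (D : Subgroup G)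
    (hcent : ∀ R : Sylow p G, D ≤ (R : Subgroup G) →
      (R : Subgroup G) ≤ centralizer (D : Set G))
    (R1 : Sylow p G) (h1 : D ≤ (R1 : Subgroup G)) :
    Nat.card {R : Sylow p G // D ≤ (R : Subgroup G)} ∣ Nat.card G := by
  have hF : {R : Sylow p G | D ≤ (R : Subgroup G)} =
      MulAction.orbit (centralizer (D : Set G)) R1 := by
    ext R
    simp only [Set.mem_setOf_eq, MulAction.mem_orbit_iff]
    constructor
    · intro hR
      obtain ⟨c, hc⟩ := MulAction.exists_smul_eq (centralizer (D : Set G))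
        (R1.subtype (hcent R1 h1)) (R.subtype (hcent R hR))
      rw [Sylow.smul_subtype] at hc
      exact ⟨c, Sylow.subtype_injective hc⟩
    · rintro ⟨c, rfl⟩
      intro d hd
      rw [Subgroup.smul_def, Sylow.coe_subgroup_smul, Subgroup.mem_smul_pointwise_iff_exists]
      refine ⟨d, h1 hd, ?_⟩
      rw [MulAut.smul_def, MulAut.conj_apply]
      have := c.2 d hd
      rw [← this]
      group
  have h2 := MulAction.index_stabilizer (centralizer (D : Set G)) R1
  rw [← hF] at h2
  have h3 : Nat.card {R : Sylow p G // D ≤ (R : Subgroup G)} =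
      ({R : Sylow p G | D ≤ (R : Subgroup G)} : Set (Sylow p G)).ncard :=
    Nat.card_coe_set_eq _
  rw [h3, ← h2]
  exact (Subgroup.index_dvd_card _).trans (Subgroup.card_subgroup_dvd_card _)

/-- In a simple group of order 720 with ten Sylow 3-subgroups, a subgroup of order 3 lying in
two Sylow 3-subgroups lies in exactly four. -/
theorem o720c_four {G : Type*} [Group G] [Finite G] [IsSimpleGroup G] (h : Nat.card G = 720)
    (h10 : Nat.card (Sylow 3 G) = 10) (D : Subgroup G) (hD : Nat.card D = 3)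
    (R1 R2 : Sylow 3 G) (hne : R1 ≠ R2) (h1 : D ≤ (R1 : Subgroup G))
    (h2 : D ≤ (R2 : Subgroup G)) :
    Nat.card {R : Sylow 3 G // D ≤ (R : Subgroup G)} = 4 := by
  haveI : Fact (Nat.Prime 3) := ⟨by norm_num⟩
  have hS : ∀ P : Sylow 3 G, Nat.card (P : Subgroup G) = 9 := by
    intro P
    have := OrdTools.sylow_card (p := 3) 2 80 (by rw [h]; norm_num) (by norm_num) P
    simpa using this
  have hcent : ∀ R : Sylow 3 G, D ≤ (R : Subgroup G) →
      (R : Subgroup G) ≤ centralizer (D : Set G) := by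
    intro R hR x hx
    rw [Subgroup.mem_centralizer_iff]
    intro d hd
    have := IsPGroup.commutative_of_card_eq_prime_sq (p := 3) (G := (R : Subgroup G))
      (by rw [hS R]; norm_num) ⟨d, hR hd⟩ ⟨x, hx⟩
    exact congrArg Subtype.val this
  have hdvd := o720c_orbit D hcent R1 h1
  rw [h] at hdvd
  have hDp : IsPGroup 3 D := IsPGroup.of_card (n := 1) (by rw [hD]; norm_num)
  have hmod := hDp.card_modEq_card_fixedPoints (Sylow 3 G)
  have hfix : MulAction.fixedPoints D (Sylow 3 G) = {R : Sylow 3 G | D ≤ (R : Subgroup G)} :=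
    Set.ext fun R => hDp.sylow_mem_fixedPoints_iff
  rw [hfix, h10] at hmod
  have hmod' : 10 % 3 = Nat.card {R : Sylow 3 G // D ≤ (R : Subgroup G)} % 3 := hmod
  have hge : 1 < Nat.card {R : Sylow 3 G // D ≤ (R : Subgroup G)} := by
    haveI : Nontrivial {R : Sylow 3 G // D ≤ (R : Subgroup G)} :=
      ⟨⟨⟨R1, h1⟩, ⟨R2, h2⟩, fun hh => hne (congrArg Subtype.val hh)⟩⟩
    exact Finite.one_lt_card
  have hlt : Nat.card {R : Sylow 3 G // D ≤ (R : Subgroup G)} < 10 := by
    by_cases hall : ∀ R : Sylow 3 G, D ≤ (R : Subgroup G)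
    · exfalso
      have hbot : D = ⊥ := by
        rw [eq_bot_iff]
        intro d hd
        rw [Subgroup.mem_bot]
        apply OrdTools.eq_one_of_smul_sylow (p := 3) (by rw [h10]; norm_num) d
        intro Q
        rw [Sylow.smul_eq_iff_mem_normalizer]
        exact Subgroup.le_normalizer (hall Q hd)
      rw [hbot, Subgroup.card_bot] at hD
      omega
    · push_neg at hall
      obtain ⟨R, hR⟩ := hall
      have := Finite.card_subtype_lt (p := fun R : Sylow 3 G => D ≤ (R : Subgroup G)) hR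
      rw [h10] at this
      exact this
  generalize Nat.card {R : Sylow 3 G // D ≤ (R : Subgroup G)} = k at *
  interval_cases k <;> omega

/-- If a Sylow `p`-subgroup `P` of order `m` meets another one `R` trivially, and there are
`m + 1` Sylow `p`-subgroups, then `P` meets every other Sylow `p`-subgroup trivially. -/
theorem o720c_local {G : Type*} [Group G] [Finite G] {p : ℕ} [Fact p.Prime]
    (P R : Sylow p G) (hcard : Nat.card (Sylow p G) ≤ Nat.card (P : Subgroup G) + 1)
    (hPR : P ≠ R) (hbot : (P : Subgroup G) ⊓ (R : Subgroup G) = ⊥) :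
    ∀ Q : Sylow p G, Q ≠ P → (P : Subgroup G) ⊓ (Q : Subgroup G) = ⊥ := by
  have hwd : ∀ x : G, x ∈ (P : Subgroup G) → x • R ≠ P := by
    intro x hxP hx
    apply hPR
    have h1 : x⁻¹ • P = P := by
      rw [Sylow.smul_eq_iff_mem_normalizer]
      exact Subgroup.le_normalizer (inv_mem hxP)
    calc P = x⁻¹ • P := h1.symm
      _ = x⁻¹ • (x • R) := by rw [hx]
      _ = R := inv_smul_smul x R
  let f : ↥(P : Subgroup G) → {Q : Sylow p G // Q ≠ P} := fun x => ⟨(x : G) • R, hwd x x.2⟩
  have hinj : Function.Injective f := by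
    intro x y hxy
    have h1 : (x : G) • R = (y : G) • R := congrArg Subtype.val hxy
    have h2 : ((y : G)⁻¹ * (x : G)) • R = R := by
      rw [mul_smul, h1, inv_smul_smul]
    rw [Sylow.smul_eq_iff_mem_normalizer] at h2
    have h4 := IsPGroup.inf_normalizer_sylow P.2 R
    have h3 : (y : G)⁻¹ * (x : G) ∈ (P : Subgroup G) ⊓ (R : Subgroup G) := by
      rw [← h4]
      exact Subgroup.mem_inf.mpr ⟨mul_mem (inv_mem y.2) x.2, h2⟩
    rw [hbot, Subgroup.mem_bot] at h3
    apply Subtype.ext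
    calc (x : G) = (y : G) * ((y : G)⁻¹ * (x : G)) := by group
      _ = (y : G) := by rw [h3, mul_one]
  have hle : Nat.card {Q : Sylow p G // Q ≠ P} ≤ Nat.card (P : Subgroup G) := by
    have := Finite.card_subtype_lt (p := fun Q : Sylow p G => Q ≠ P) (x := P) (by simp)
    omega
  have hbij := hinj.bijective_of_nat_card_le hle
  intro Q hQ
  obtain ⟨x, hx⟩ := hbij.2 ⟨Q, hQ⟩
  have hxQ : (x : G) • R = Q := congrArg Subtype.val hx
  rw [eq_bot_iff]
  intro z hz
  rw [Subgroup.mem_bot]
  obtain ⟨hzP, hzQ⟩ := Subgroup.mem_inf.mp hz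
  rw [← hxQ, Sylow.coe_subgroup_smul, Subgroup.mem_smul_pointwise_iff_exists] at hzQ
  obtain ⟨s, hs, hsz⟩ := hzQ
  rw [MulAut.smul_def, MulAut.conj_apply] at hsz
  have hsP : s ∈ (P : Subgroup G) := by
    have : s = (x : G)⁻¹ * z * (x : G) := by rw [← hsz]; group
    rw [this]
    exact mul_mem (mul_mem (inv_mem x.2) hzP) x.2
  have hs1 : s ∈ (P : Subgroup G) ⊓ (R : Subgroup G) := Subgroup.mem_inf.mpr ⟨hsP, hs⟩
  rw [hbot, Subgroup.mem_bot] at hs1
  rw [← hsz, hs1]
  group

/-- PIECE O720C (CALL S0496, helper27) -/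
theorem o720_ti {G : Type*} [Group G] [Finite G] [IsSimpleGroup G]
    (hG : ¬ IsMulCommutative G) (h : Nat.card G = 720)
    (h10 : Nat.card (Sylow 3 G) = 10) :
    ∀ P Q : Sylow 3 G, P ≠ Q → (P : Subgroup G) ⊓ (Q : Subgroup G) = ⊥ := by
  classical
  haveI : Fact (Nat.Prime 3) := ⟨by norm_num⟩
  haveI : Fintype (Sylow 3 G) := Fintype.ofFinite _
  have hS : ∀ P : Sylow 3 G, Nat.card (P : Subgroup G) = 9 := by
    intro P
    have := OrdTools.sylow_card (p := 3) 2 80 (by rw [h]; norm_num) (by norm_num) P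
    simpa using this
  by_contra hcon
  push_neg at hcon
  obtain ⟨P0, Q0, hne0, hbot0⟩ := hcon
  -- all pairs meet nontrivially
  have hloc : ∀ P : Sylow 3 G, (∃ Q, Q ≠ P ∧ (P : Subgroup G) ⊓ (Q : Subgroup G) ≠ ⊥) →
      ∀ R : Sylow 3 G, R ≠ P → (P : Subgroup G) ⊓ (R : Subgroup G) ≠ ⊥ := by
    rintro P ⟨Q, hQ, hPQ⟩ R hR hbot
    exact hPQ (o720c_local P R (by rw [h10, hS P]) hR.symm hbot Q hQ)
  have hall : ∀ P Q : Sylow 3 G, P ≠ Q → (P : Subgroup G) ⊓ (Q : Subgroup G) ≠ ⊥ := by
    have h0 := hloc P0 ⟨Q0, hne0.symm, hbot0⟩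
    intro P Q hPQ
    by_cases hP : P = P0
    · subst hP; exact h0 Q hPQ.symm
    · have h1 := h0 P hP
      exact hloc P ⟨P0, Ne.symm hP, by rwa [inf_comm]⟩ Q hPQ.symm
  have hc3 : ∀ P Q : Sylow 3 G, P ≠ Q →
      Nat.card ((P : Subgroup G) ⊓ (Q : Subgroup G) : Subgroup G) = 3 := by
    intro P Q hPQ
    have hdvd : Nat.card ((P : Subgroup G) ⊓ (Q : Subgroup G) : Subgroup G) ∣ 9 :=
      hS P ▸ Subgroup.card_dvd_of_le inf_le_left
    have hne1 : Nat.card ((P : Subgroup G) ⊓ (Q : Subgroup G) : Subgroup G) ≠ 1 :=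
      fun h1 => hall P Q hPQ (Subgroup.eq_bot_of_card_eq _ h1)
    have hne9 : Nat.card ((P : Subgroup G) ⊓ (Q : Subgroup G) : Subgroup G) ≠ 9 := by
      intro h9
      have h1 : ((P : Subgroup G) ⊓ (Q : Subgroup G) : Subgroup G) = (P : Subgroup G) :=
        Subgroup.eq_of_le_of_card_ge inf_le_left (by rw [h9, hS P])
      have hle : (P : Subgroup G) ≤ (Q : Subgroup G) := h1 ▸ inf_le_right
      exact hPQ (Sylow.ext (Subgroup.eq_of_le_of_card_ge hle (by rw [hS P, hS Q])))
    have hle9 : Nat.card ((P : Subgroup G) ⊓ (Q : Subgroup G) : Subgroup G) ≤ 9 :=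
      Nat.le_of_dvd (by norm_num) hdvd
    generalize Nat.card ((P : Subgroup G) ⊓ (Q : Subgroup G) : Subgroup G) = c at *
    interval_cases c <;> omega
  -- count ordered pairs of distinct Sylow 3-subgroups by their intersection
  let S : Finset (Sylow 3 G × Sylow 3 G) := (Finset.univ : Finset (Sylow 3 G)).offDiag
  let f : Sylow 3 G × Sylow 3 G → Subgroup G := fun x => (x.1 : Subgroup G) ⊓ (x.2 : Subgroup G)
  have hScard : S.card = 90 := by
    rw [Finset.offDiag_card, Finset.card_univ, ← Nat.card_eq_fintype_card, h10]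
  have hsum := Finset.card_eq_sum_card_fiberwise (f := f) (s := S) (t := S.image f)
    (fun x hx => Finset.mem_image_of_mem f hx)
  have hfib : ∀ D ∈ S.image f, (S.filter (fun a => f a = D)).card = 12 := by
    intro D hD
    obtain ⟨⟨R1, R2⟩, hR, rfl⟩ := Finset.mem_image.mp hD
    have hne : R1 ≠ R2 := by
      have := Finset.mem_offDiag.mp hR
      exact this.2.2
    have h4 := o720c_four h h10 ((R1 : Subgroup G) ⊓ (R2 : Subgroup G)) (hc3 R1 R2 hne) R1 R2 hne
      inf_le_left inf_le_right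
    have hset : S.filter (fun a => f a = (R1 : Subgroup G) ⊓ (R2 : Subgroup G)) =
        (Finset.univ.filter (fun R : Sylow 3 G =>
          (R1 : Subgroup G) ⊓ (R2 : Subgroup G) ≤ (R : Subgroup G))).offDiag := by
      ext ⟨A, B⟩
      simp only [Finset.mem_filter, Finset.mem_offDiag, Finset.mem_univ, true_and, S, f]
      constructor
      · rintro ⟨hAB, heq⟩
        exact ⟨heq ▸ inf_le_left, heq ▸ inf_le_right, hAB⟩
      · rintro ⟨hA, hB, hAB⟩
        refine ⟨hAB, ?_⟩
        exact (Subgroup.eq_of_le_of_card_ge (le_inf hA hB)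
          (by rw [hc3 A B hAB, hc3 R1 R2 hne])).symm
    have hc4 : (Finset.univ.filter (fun R : Sylow 3 G =>
        (R1 : Subgroup G) ⊓ (R2 : Subgroup G) ≤ (R : Subgroup G))).card = 4 := by
      rw [← h4, Nat.card_eq_fintype_card, Fintype.card_subtype]
    show (S.filter (fun a => f a = (R1 : Subgroup G) ⊓ (R2 : Subgroup G))).card = 12
    rw [hset, Finset.offDiag_card, hc4]
  rw [Finset.sum_congr rfl hfib, Finset.sum_const, hScard, smul_eq_mul] at hsum
  omega

end Cfsg.Agent.Helper41
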