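import Mathlib
import Cfsg.Agent.Helper90.IMDefs
import Cfsg.Agent.Helper90.BGChain
import Cfsg.Agent.Helper46.BGLIRR

set_option autoImplicit false

namespace Cfsg.Agent.Helper41

open Module Polynomial Cfsg.Agent.Helper90.IM

variable {F : Type*} [Field F] {V : Type*} [AddCommGroup V] [Module F V] [FiniteDimensional F V]

/-- PIECE SSC (CALL S5958, helper90) -/
theorem ss_compl (T : V →ₗ[F] V) (r : ℕ) (hrF : (r : F) ≠ 0) (z : F) (hz : z ≠ 0)
    (hT : T ^ r = z • (1 : Module.End F V)) (U W : Submodule F V) (hUW : U ≤ W)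
    (hU : U.map T ≤ U) (hW : W.map T ≤ W) :
    ∃ U' : Submodule F V, U' ≤ W ∧ U'.map T ≤ U' ∧ U ⊓ U' = ⊥ ∧ U ⊔ U' = W := by
  have hss : Module.End.IsSemisimple T := by
    apply Module.End.isSemisimple_of_squarefree_aeval_eq_zero (p := X ^ r - C z)
    · exact (Polynomial.separable_X_pow_sub_C z hrF hz).squarefree
    · simp [hT, Algebra.algebraMap_eq_smul_one]
  rw [Module.End.isSemisimple_iff] at hss
  obtain ⟨Q, hQ, hc⟩ := hss U (by
    rw [Module.End.mem_invtSubmodule]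
    exact Submodule.map_le_iff_le_comap.mp hU)
  rw [Module.End.mem_invtSubmodule] at hQ
  have hQ' : Q.map T ≤ Q := Submodule.map_le_iff_le_comap.mpr hQ
  refine ⟨Q ⊓ W, inf_le_right, ?_, ?_, ?_⟩
  · exact (Submodule.map_inf_le T).trans (inf_le_inf hQ' hW)
  · rw [← inf_assoc, hc.inf_eq_bot, bot_inf_eq]
  · rw [← sup_inf_assoc_of_le Q hUW, hc.sup_eq_top, top_inf_eq]

end Cfsg.Agent.Helper41
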