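import Mathlib

set_option autoImplicit false

namespace Cfsg.Agent.Helper41

open Subgroup

universe u

/-- auxiliary: membership in a conjugate subgroup. -/
theorem bg38_mem_map_conj_aux {Γ : Type u} [Group Γ] (H : Subgroup Γ) (n z : Γ) :
    z ∈ H.map (MulAut.conj n).toMonoidHom ↔ n⁻¹ * z * n ∈ H := by
  rw [Subgroup.mem_map_equiv, MulAut.conj_symm_apply]

/-- CONJC (pure). `N ∩ C(n k n⁻¹) = n (N ∩ C(k)) n⁻¹` for `n ∈ N_G(N)`. -/
theorem bg38_inf_cent_conj {Γ : Type u} [Group Γ] {N : Subgroup Γ} {n k : Γ}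
    (hn : n ∈ normalizer (N : Set Γ)) :
    N ⊓ centralizer ({n * k * n⁻¹} : Set Γ) =
      (N ⊓ centralizer ({k} : Set Γ)).map (MulAut.conj n).toMonoidHom := by
  ext z
  rw [bg38_mem_map_conj_aux, Subgroup.mem_inf, Subgroup.mem_inf, Subgroup.mem_centralizer_iff,
    Subgroup.mem_centralizer_iff]
  have hn' : ∀ h, h ∈ N ↔ n * h * n⁻¹ ∈ N := fun h => by
    have := (Subgroup.mem_normalizer_iff.mp hn) h
    simpa using this
  have hN : n⁻¹ * z * n ∈ N ↔ z ∈ N := by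
    rw [hn' (n⁻¹ * z * n)]
    have : n * (n⁻¹ * z * n) * n⁻¹ = z := by group
    rw [this]
  constructor
  · rintro ⟨hzN, hc⟩
    refine ⟨hN.mpr hzN, ?_⟩
    intro h hh
    rw [Set.mem_singleton_iff] at hh
    subst hh
    have h1 := hc (n * h * n⁻¹) (Set.mem_singleton _)
    calc h * (n⁻¹ * z * n) = n⁻¹ * ((n * h * n⁻¹) * z) * n := by group
      _ = n⁻¹ * (z * (n * h * n⁻¹)) * n := by rw [h1]
      _ = n⁻¹ * z * n * h := by group
  · rintro ⟨hzN, hc⟩
    refine ⟨hN.mp hzN, ?_⟩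
    intro h hh
    rw [Set.mem_singleton_iff] at hh
    subst hh
    have h1 := hc k (Set.mem_singleton _)
    calc n * k * n⁻¹ * z = n * (k * (n⁻¹ * z * n)) * n⁻¹ := by group
      _ = n * ((n⁻¹ * z * n) * k) * n⁻¹ := by rw [h1]
      _ = z * (n * k * n⁻¹) := by group

end Cfsg.Agent.Helper41
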