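import Mathlib

set_option autoImplicit false

namespace Cfsg.Agent.Helper41

open Subgroup

universe u

/-- auxiliary: membership in a conjugate subgroup. -/
theorem bg38_mem_map_conj_aux' {Γ : Type u} [Group Γ] (H : Subgroup Γ) (n z : Γ) :
    z ∈ H.map (MulAut.conj n).toMonoidHom ↔ n⁻¹ * z * n ∈ H := by
  rw [Subgroup.mem_map_equiv, MulAut.conj_symm_apply]

/-- ZHAT (pure). Conjugating back. -/
theorem bg38_zhat_conj {Γ : Type u} [Group Γ] {A B : Subgroup Γ} {n w : Γ}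
    (hw : w ∈ A.map (MulAut.conj n).toMonoidHom ⊔ B.map (MulAut.conj n).toMonoidHom)
    (hwA : w ∉ A.map (MulAut.conj n).toMonoidHom)
    (hwB : w ∉ B.map (MulAut.conj n).toMonoidHom) :
    n⁻¹ * w * n ∈ (↑(A ⊔ B) : Set Γ) \ (↑A ∪ ↑B) := by
  rw [← Subgroup.map_sup, bg38_mem_map_conj_aux'] at hw
  rw [bg38_mem_map_conj_aux'] at hwA hwB
  refine ⟨hw, ?_⟩
  rintro (h | h)
  · exact hwA h
  · exact hwB h

end Cfsg.Agent.Helper41
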