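import Mathlib

/-!
# Piece DET of CALL S5949 (helper90): `bgl_kummer_det`

If `x ^ r = c • 1` for an `n × n` matrix over a field `F` and `X ^ r - c` is irreducible over
`F`, then `r ∣ n` and `det x = ((-1) ^ (r + 1) * c) ^ (n / r)`.

Proof: every eigenvalue of `x` over the algebraic closure is a root of `X ^ r - c`, so every
irreducible factor of the characteristic polynomial is `X ^ r - c`; hence the characteristic
polynomial is a power of `X ^ r - c`, and the determinant is read off its constant coefficient.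
-/

set_option autoImplicit false

namespace Cfsg.Agent.Helper41

open Polynomial

namespace BGLDET

/-- over a field, an eigenvalue of a matrix with `x ^ r = c • 1` is an `r`-th root of `c`. -/
theorem root_of_charpoly {L : Type*} [Field L] {n : ℕ} (r : ℕ) (c : L)
    (x : Matrix (Fin n) (Fin n) L) (hx : x ^ r = c • (1 : Matrix (Fin n) (Fin n) L)) (μ : L)
    (hμ : x.charpoly.eval μ = 0) : μ ^ r = c := by
  rw [Matrix.eval_charpoly] at hμ
  obtain ⟨v, hv0, hv⟩ := Matrix.exists_mulVec_eq_zero_iff.mpr hμ
  have h1 : x.mulVec v = μ • v := by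
    rw [Matrix.sub_mulVec] at hv
    have h2 : (Matrix.scalar (Fin n) μ).mulVec v = μ • v := by
      funext i
      simp [Matrix.scalar_apply, Matrix.mulVec_diagonal]
    rw [h2] at hv
    exact (sub_eq_zero.mp hv).symm
  have h3 : ∀ k : ℕ, (x ^ k).mulVec v = μ ^ k • v := by
    intro k
    induction k with
    | zero => simp
    | succ k ih =>
      rw [pow_succ, ← Matrix.mulVec_mulVec, h1, Matrix.mulVec_smul, ih, smul_smul, ← pow_succ']
  have h4 := h3 r
  rw [hx, Matrix.smul_mulVec, Matrix.one_mulVec] at h4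
  obtain ⟨i, hi⟩ : ∃ i, v i ≠ 0 := by
    by_contra hcon
    push Not at hcon
    exact hv0 (funext hcon)
  have h5 := congrFun h4 i
  simp only [Pi.smul_apply, smul_eq_mul] at h5
  exact (mul_right_cancel₀ hi h5).symm

end BGLDET

open BGLDET in
theorem bgl_kummer_det {F : Type*} [Field F] (n r : ℕ) (hr : r.Prime) (c : F) (hirr : Irreducible (X ^ r - C c : F[X]))
    (x : Matrix (Fin n) (Fin n) F) (hx : x ^ r = c • (1 : Matrix (Fin n) (Fin n) F)) : r ∣ n ∧ x.det = ((-1 : F) ^ (r + 1) * c) ^ (n / r) := by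
  classical
  obtain ⟨P, hPdef⟩ : ∃ P : F[X], P = X ^ r - C c := ⟨_, rfl⟩
  rw [← hPdef] at hirr
  have hPdeg : P.natDegree = r := by rw [hPdef]; exact natDegree_X_pow_sub_C
  have hPmonic : P.Monic := by rw [hPdef]; exact monic_X_pow_sub_C c hr.ne_zero
  have hχ0 : x.charpoly ≠ 0 := (Matrix.charpoly_monic x).ne_zero
  obtain ⟨k, g, hg, hfac⟩ := WfDvdMonoid.max_power_factor hχ0 hirr
  -- every irreducible factor of the characteristic polynomial is divisible by `P`
  have hq : ∀ q : F[X], Irreducible q → q ∣ x.charpoly → P ∣ q := by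
    intro q hqi hqd
    obtain ⟨μ, hμ⟩ := IsAlgClosed.exists_aeval_eq_zero (AlgebraicClosure F) q
      (degree_pos_of_irreducible hqi).ne'
    have hμχ : aeval μ x.charpoly = 0 := by
      obtain ⟨w, hw⟩ := hqd
      rw [hw, map_mul, hμ, zero_mul]
    have hx' : (x.map (algebraMap F (AlgebraicClosure F))) ^ r =
        (algebraMap F (AlgebraicClosure F) c) •
          (1 : Matrix (Fin n) (Fin n) (AlgebraicClosure F)) := by
      have h1 := congrArg (RingHom.mapMatrix (algebraMap F (AlgebraicClosure F))) hx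
      rw [map_pow, RingHom.mapMatrix_apply] at h1
      rw [h1]
      ext i j
      by_cases hij : i = j
      · simp [hij]
      · simp [hij]
    have hroot : (x.map (algebraMap F (AlgebraicClosure F))).charpoly.eval μ = 0 := by
      rw [Matrix.charpoly_map, eval_map, ← aeval_def]
      exact hμχ
    have hμr := root_of_charpoly r (algebraMap F (AlgebraicClosure F) c) _ hx' μ hroot
    have hPμ : aeval μ P = 0 := by
      rw [hPdef]
      simp [hμr]
    have hint : IsIntegral F μ := IsAlgebraic.isIntegral ⟨q, hqi.ne_zero, hμ⟩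
    have h1 : minpoly F μ ∣ P := minpoly.dvd F μ hPμ
    have h2 : minpoly F μ ∣ q := minpoly.dvd F μ hμ
    exact ((minpoly.irreducible hint).dvd_symm hirr h1).trans h2
  have hgunit : IsUnit g := by
    by_contra hgu
    have hg0 : g ≠ 0 := by
      rintro rfl
      exact hg (dvd_zero _)
    obtain ⟨q, hqi, hqd⟩ := WfDvdMonoid.exists_irreducible_factor hgu hg0
    exact hg ((hq q hqi (hqd.trans ⟨P ^ k, by rw [hfac]; ring⟩)).trans hqd)
  have hg1 : g = 1 := by
    obtain ⟨u, hu, rfl⟩ := Polynomial.isUnit_iff.mp hgunit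
    have hm := Matrix.charpoly_monic x
    rw [hfac, Monic, leadingCoeff_mul, leadingCoeff_pow, hPmonic.leadingCoeff, one_pow, one_mul,
      leadingCoeff_C] at hm
    rw [hm, C_1]
  rw [hg1, mul_one] at hfac
  have hn : n = k * r := by
    have h1 := Matrix.charpoly_natDegree_eq_dim x
    rw [hfac, natDegree_pow, hPdeg, Fintype.card_fin] at h1
    exact h1.symm
  refine ⟨⟨k, by rw [hn, mul_comm]⟩, ?_⟩
  have hnr : n / r = k := by
    rw [hn]
    exact Nat.mul_div_cancel k hr.pos
  rw [hnr, Matrix.det_eq_sign_charpoly_coeff, hfac, Fintype.card_fin, coeff_zero_eq_eval_zero,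
    eval_pow, hPdef]
  simp only [eval_sub, eval_pow, eval_X, eval_C]
  rw [zero_pow hr.ne_zero, zero_sub, hn, neg_pow c k]
  ring

end Cfsg.Agent.Helper41
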