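import Mathlib

/-!
# Piece R5 of CALL S0999 (helper9): in a perfect group with a Sylow `p`-subgroup of order `p`
that is not central in its normaliser, no quotient by a normal `p'`-subgroup has a normal Sylow
`p`-subgroup
-/

set_option autoImplicit false

universe u

namespace Cfsg.Agent.Helper41

/-- a normal cyclic subgroup of a perfect group is central. -/
theorem central_of_normal_cyclic_of_perfect {H : Type*} [Group H] (hperf : commutator H = ⊤)
    (N : Subgroup H) [hN : N.Normal] [IsCyclic N] (g : H) (n : H) (hn : n ∈ N) :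
    g * n * g⁻¹ = n := by
  have hker := Abelianization.commutator_subset_ker
    ((IsCyclic.mulAutMulEquiv N).toMonoidHom.comp (MulAut.conjNormal (H := N)))
  rw [hperf] at hker
  have hg : g ∈ ((IsCyclic.mulAutMulEquiv N).toMonoidHom.comp
      (MulAut.conjNormal (H := N))).ker := hker (Subgroup.mem_top g)
  rw [MonoidHom.mem_ker, MonoidHom.comp_apply] at hg
  have h1 : (MulAut.conjNormal (H := N)) g = 1 :=
    (IsCyclic.mulAutMulEquiv N).injective (by rw [map_one]; exact hg)
  have h2 := congrArg (fun φ : MulAut N => ((φ ⟨n, hn⟩ : N) : H)) h1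
  simpa [MulAut.conjNormal_apply] using h2

theorem br_quot_sylow_not_normal {G : Type u} [Group G] [Finite G] (hperf : commutator G = ⊤)
    {p : ℕ} [Fact p.Prime] (P : Sylow p G) (hP : Nat.card (P : Subgroup G) = p)
    (hNC : ¬ Subgroup.normalizer ((P : Subgroup G) : Set G)
      ≤ Subgroup.centralizer ((P : Subgroup G) : Set G))
    (K : Subgroup G) [K.Normal] (hK : (Nat.card K).Coprime p) (Q : Sylow p (G ⧸ K)) :
    ¬ (Q : Subgroup (G ⧸ K)).Normal := by
  intro hQ
  apply hNC
  have hsurj : Function.Surjective (QuotientGroup.mk' K) := QuotientGroup.mk'_surjective K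
  -- the image of `P` is the normal Sylow subgroup
  haveI : Subsingleton (Sylow p (G ⧸ K)) := (Sylow.unique_of_normal Q hQ).instSubsingleton
  have hPQ : P.mapSurjective hsurj = Q := Subsingleton.elim _ _
  have hmap : (P : Subgroup G).map (QuotientGroup.mk' K) = (Q : Subgroup (G ⧸ K)) := by
    rw [← hPQ, Sylow.coe_mapSurjective]
  haveI hnorm : ((P : Subgroup G).map (QuotientGroup.mk' K)).Normal := hmap ▸ hQ
  -- it is cyclic
  haveI hcyc : IsCyclic (P : Subgroup G) := by
    haveI : Fact (Nat.card (P : Subgroup G)).Prime := ⟨by rw [hP]; exact Fact.out⟩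
    exact isCyclic_of_prime_card rfl
  haveI hcyc' : IsCyclic ((P : Subgroup G).map (QuotientGroup.mk' K)) :=
    isCyclic_of_surjective ((QuotientGroup.mk' K).subgroupMap (P : Subgroup G))
      ((QuotientGroup.mk' K).subgroupMap_surjective (P : Subgroup G))
  -- the quotient is perfect
  have hperf' : commutator (G ⧸ K) = ⊤ := by
    rw [commutator_def, ← Subgroup.map_top_of_surjective (QuotientGroup.mk' K) hsurj,
      ← Subgroup.map_commutator, ← commutator_def, hperf]
  have hinf : (P : Subgroup G) ⊓ K = ⊥ :=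
    Subgroup.inf_eq_bot_of_coprime (by rw [hP]; exact hK.symm)
  intro g hg
  rw [Subgroup.mem_centralizer_iff]
  intro x hx
  have hx' : x ∈ (P : Subgroup G) := hx
  have hgx : g * x * g⁻¹ ∈ (P : Subgroup G) := (Subgroup.mem_normalizer_iff.mp hg x).mp hx'
  have hc := central_of_normal_cyclic_of_perfect hperf'
    ((P : Subgroup G).map (QuotientGroup.mk' K)) (QuotientGroup.mk' K g) (QuotientGroup.mk' K x)
    (Subgroup.mem_map_of_mem _ hx')
  have hK' : g * x * g⁻¹ * x⁻¹ ∈ K := by
    rw [← QuotientGroup.ker_mk' K, MonoidHom.mem_ker, map_mul, map_mul, map_mul, map_inv, map_inv,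
      hc, mul_inv_cancel]
  have hP' : g * x * g⁻¹ * x⁻¹ ∈ (P : Subgroup G) :=
    Subgroup.mul_mem _ hgx (Subgroup.inv_mem _ hx')
  have h1 : g * x * g⁻¹ * x⁻¹ = 1 := by
    have : g * x * g⁻¹ * x⁻¹ ∈ (P : Subgroup G) ⊓ K := ⟨hP', hK'⟩
    rw [hinf] at this
    exact this
  have h2 : g * x * g⁻¹ = x := by
    rw [mul_inv_eq_one] at h1
    exact h1
  exact (mul_inv_eq_iff_eq_mul.mp h2).symm

end Cfsg.Agent.Helper41
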