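import Cfsg.Agent.Helper96.CWDefs

/-!
# CALL S5707 (helper96), piece RA (helper41): changing `P` by the pure tensor `A ⊗ ⋯ ⊗ A`.
-/

set_option autoImplicit false
set_option linter.unusedSectionVars false
set_option linter.unusedSimpArgs false
set_option linter.unusedVariables false

namespace Cfsg.Agent.Helper41.CWRA

open Matrix Cfsg Cfsg.Geo Cfsg.Agent.Helper96 Cfsg.Agent.Helper96.CW

/-- PIECE RA: changing `P` by the pure tensor `A ⊗ ⋯ ⊗ A` does not change the tensor-wreath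
subgroup. -/
theorem ra {F : Type*} [Field F] {n : ℕ} (Q : (Fin n → F) → F) (k t : ℕ)
    (e : Fin n ≃ (Fin t → Fin k)) (P : GL (Fin n) F) (c : F)
    (Q' : ((Fin t → Fin k) → F) → F)
    (hQQ : ∀ v : (Fin t → Fin k) → F, Q ((P : Matrix (Fin n) (Fin n) F) *ᵥ (v ∘ e)) = c * Q' v)
    (A Ainv : Matrix (Fin k) (Fin k) F) (h1 : A * Ainv = 1) (h2 : Ainv * A = 1) :
    ∃ P₂ : GL (Fin n) F, tensorWreathSubgroup k t e P₂ = tensorWreathSubgroup k t e P ∧
      ∀ v : (Fin t → Fin k) → F, Q ((P₂ : Matrix (Fin n) (Fin n) F) *ᵥ (v ∘ e))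
        = c * Q' (ptM (fun _ : Fin t => A) *ᵥ v) := by
  classical
  -- the pure tensor unit
  let u : GL (Fin t → Fin k) F :=
    ⟨ptM (fun _ : Fin t => A), ptM (fun _ : Fin t => Ainv),
      by rw [ptM_mul]; simp only [h1]; exact ptM_one,
      by rw [ptM_mul]; simp only [h2]; exact ptM_one⟩
  have hu : u ∈ tensorWreathStandard k t F := by
    apply Subgroup.subset_closure
    left
    refine ⟨fun _ => ⟨A, Ainv, h1, h2⟩, ?_⟩
    intro x y
    rfl
  set w : GL (Fin n) F := glReindex e.symm u with hw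
  set S0 : Subgroup (GL (Fin n) F) :=
    (tensorWreathStandard k t F).map (glReindex e.symm).toMonoidHom with hS0
  have hwS : w ∈ S0 := Subgroup.mem_map.mpr ⟨u, hu, rfl⟩
  have hre : ∀ (g : GL (Fin t → Fin k) F) (v : (Fin t → Fin k) → F),
      ((glReindex e.symm g : GL (Fin n) F) : Matrix (Fin n) (Fin n) F) *ᵥ (v ∘ e)
        = ((g : Matrix (Fin t → Fin k) (Fin t → Fin k) F) *ᵥ v) ∘ e := by
    intro g v
    show ((g : Matrix (Fin t → Fin k) (Fin t → Fin k) F).submatrix e e) *ᵥ (v ∘ e) = _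
    rw [Matrix.submatrix_mulVec_equiv]
    congr 2
    funext p
    simp
  refine ⟨P * w, ?_, ?_⟩
  · show S0.map (MulAut.conj (P * w)).toMonoidHom = S0.map (MulAut.conj P).toMonoidHom
    ext x
    rw [Subgroup.mem_map, Subgroup.mem_map]
    constructor
    · rintro ⟨s, hs, rfl⟩
      refine ⟨w * s * w⁻¹, S0.mul_mem (S0.mul_mem hwS hs) (S0.inv_mem hwS), ?_⟩
      show P * (w * s * w⁻¹) * P⁻¹ = (P * w) * s * (P * w)⁻¹
      rw [_root_.mul_inv_rev]
      simp only [mul_assoc]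
    · rintro ⟨s, hs, rfl⟩
      refine ⟨w⁻¹ * s * w, S0.mul_mem (S0.mul_mem (S0.inv_mem hwS) hs) hwS, ?_⟩
      show (P * w) * (w⁻¹ * s * w) * (P * w)⁻¹ = P * s * P⁻¹
      rw [_root_.mul_inv_rev]
      simp only [mul_assoc, mul_inv_cancel_left, mul_inv_cancel, mul_one, inv_mul_cancel_left]
  · intro v
    have h : ((P * w : GL (Fin n) F) : Matrix (Fin n) (Fin n) F) *ᵥ (v ∘ e)
        = (P : Matrix (Fin n) (Fin n) F) *ᵥ
            (((u : Matrix (Fin t → Fin k) (Fin t → Fin k) F) *ᵥ v) ∘ e) := by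
      rw [Units.val_mul, ← Matrix.mulVec_mulVec, hw, hre]
    rw [h, hQQ]

end Cfsg.Agent.Helper41.CWRA
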