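import Mathlib
import Cfsg.Prelude.Def_CaseTheorems
import Cfsg.Agent.Helper5.SympSimple
import Cfsg.Agent.Helper5.SympCard
import Cfsg.Agent.Helper5.SympCenter

/-!
# Piece CORE of CALL S2136 (helper92): the `2`-core of an extension of `Sp(6, 2)` by a `2`-group
-/

set_option autoImplicit false

namespace Cfsg.Agent.Helper41

/-- `Sp(6, 2)` has no non-trivial normal `2`-subgroup. -/
theorem sp62_no_normal_two (P : Subgroup (Matrix.symplecticGroup (Fin 3) (ZMod 2)))
    (hPn : P.Normal) (hP : IsPGroup 2 P) : P = ⊥ := by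
  have hZ : Subgroup.center (Matrix.symplecticGroup (Fin 3) (ZMod 2)) = ⊥ :=
    Helper5.sp_center_eq_bot (by decide)
  have hsimple : IsSimpleGroup (Matrix.symplecticGroup (Fin 3) (ZMod 2) ⧸
      Subgroup.center (Matrix.symplecticGroup (Fin 3) (ZMod 2))) :=
    Helper5.isSimpleGroup_PSp (by norm_num) (by intro h; omega)
  have hker : (QuotientGroup.mk' (Subgroup.center (Matrix.symplecticGroup (Fin 3) (ZMod 2)))).ker
      = ⊥ := by
    rw [QuotientGroup.ker_mk', hZ]
  have hn : (P.map (QuotientGroup.mk'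
      (Subgroup.center (Matrix.symplecticGroup (Fin 3) (ZMod 2))))).Normal :=
    Subgroup.Normal.map hPn _ (QuotientGroup.mk'_surjective _)
  rcases hn.eq_bot_or_eq_top with h | h
  · rw [Subgroup.map_eq_bot_iff, hker] at h
    exact le_bot_iff.mp h
  · exfalso
    have hPtop : P = ⊤ := by
      rw [← Subgroup.comap_map_eq_self_of_injective ((MonoidHom.ker_eq_bot_iff _).mp hker) P, h,
        Subgroup.comap_top]
    have hcard : Nat.card (Matrix.symplecticGroup (Fin 3) (ZMod 2)) = 1451520 := by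
      rw [Helper5.card_sp, ZMod.card]
      decide
    obtain ⟨n, hn⟩ := IsPGroup.iff_card.mp hP
    rw [hPtop, Subgroup.card_top, hcard] at hn
    have h3 : 3 ∣ 2 ^ n := by
      rw [← hn]
      norm_num
    have := Nat.Prime.dvd_of_dvd_pow Nat.prime_three h3
    omega

theorem core_sp62 {C : Type*} [Group C] [Finite C]
    (ρ : C →* Matrix.symplecticGroup (Fin 3) (ZMod 2)) (hsurj : Function.Surjective ρ)
    (h2 : IsPGroup 2 ρ.ker) :
    Cfsg.pCore 2 C = ρ.ker ∧
      Nonempty (C ⧸ Cfsg.pCore 2 C ≃* Matrix.symplecticGroup (Fin 3) (ZMod 2)) := by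
  haveI : Fact (Nat.Prime 2) := ⟨Nat.prime_two⟩
  have hp : IsPGroup 2 (Cfsg.pCore 2 C) :=
    Sylow.sSup_of_normal _ (fun _ h => h.2) (fun _ h => h.1)
  have h1 : ρ.ker ≤ Cfsg.pCore 2 C := le_sSup ⟨ρ.normal_ker, h2⟩
  have h3 : Cfsg.pCore 2 C ≤ ρ.ker := by
    have hn : ((Cfsg.pCore 2 C).map ρ).Normal := Subgroup.Normal.map inferInstance ρ hsurj
    have hpm : IsPGroup 2 ((Cfsg.pCore 2 C).map ρ) := hp.map ρ
    have hbot := sp62_no_normal_two _ hn hpm
    rw [Subgroup.map_eq_bot_iff] at hbot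
    exact hbot
  have heq : Cfsg.pCore 2 C = ρ.ker := le_antisymm h3 h1
  exact ⟨heq, ⟨(QuotientGroup.quotientMulEquivOfEq heq).trans
    (QuotientGroup.quotientKerEquivOfSurjective ρ hsurj)⟩⟩

end Cfsg.Agent.Helper41
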