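import Mathlib
import Cfsg.Agent.Helper90.IMDefs
import Cfsg.Agent.Helper90.BGChain
import Cfsg.Agent.Helper46.BGLIRR

set_option autoImplicit false

namespace Cfsg.Agent.Helper41

open Module Polynomial Cfsg.Agent.Helper90.IM

variable {F : Type*} [Field F] [Fintype F]

/-- PIECE GLORD (CALL S5958, helper90) -/
theorem order_le_of_gl {n : ℕ} (r : ℕ) [Fact r.Prime] (hrF : (r : F) ≠ 0)
    (h : r ∣ Nat.card (GL (Fin n) F)) : orderOf ((Fintype.card F : ℕ) : ZMod r) ≤ n := by
  classical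
  have hr : r.Prime := Fact.out
  obtain ⟨g, hg⟩ := exists_prime_orderOf_dvd_card' (G := GL (Fin n) F) r h
  have hT : (Matrix.toLin' (g : Matrix (Fin n) (Fin n) F)) ^ r = 1 := by
    have h2 : Matrix.toLinAlgEquiv' ((g : Matrix (Fin n) (Fin n) F) ^ r) =
        (Matrix.toLinAlgEquiv' (g : Matrix (Fin n) (Fin n) F)) ^ r := map_pow _ _ _
    have h3 : (g : Matrix (Fin n) (Fin n) F) ^ r = 1 := by
      rw [← Units.val_pow_eq_pow_val, ← hg, pow_orderOf_eq_one, Units.val_one]
    rw [h3, map_one] at h2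
    exact h2.symm
  have hT1 : Matrix.toLin' (g : Matrix (Fin n) (Fin n) F) ≠ 1 := by
    intro h1
    have h4 : (g : Matrix (Fin n) (Fin n) F) = 1 := by
      apply Matrix.toLin'.injective
      rw [h1, Matrix.toLin'_one]
      rfl
    have h5 : g = 1 := Units.ext h4
    rw [h5, orderOf_one] at hg
    exact hr.one_lt.ne hg
  have hd : ∀ g' : F[X], Irreducible g' → g' ∣ ∑ j ∈ Finset.range r, (X : F[X]) ^ j →
      g'.natDegree = orderOf ((Fintype.card F : ℕ) : ZMod r) :=
    fun g' hg' hdvd => Cfsg.Agent.Helper46.bgl_irr_factor_degree r hrF g' hg' hdvd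
  obtain ⟨k, hk⟩ := Cfsg.Agent.Helper90.BG.cyc_dvd (Matrix.toLin' (g : Matrix (Fin n) (Fin n) F))
    r _ hrF hT hd ⊤ le_top
  rw [top_inf_eq, finrank_top, Module.finrank_fin_fun] at hk
  have hle : finrank F (LinearMap.ker (Matrix.toLin' (g : Matrix (Fin n) (Fin n) F) - 1)) ≤ n := by
    have := Submodule.finrank_le (LinearMap.ker (Matrix.toLin' (g : Matrix (Fin n) (Fin n) F) - 1))
    rwa [Module.finrank_fin_fun] at this
  have hlt : finrank F (LinearMap.ker (Matrix.toLin' (g : Matrix (Fin n) (Fin n) F) - 1)) < n := by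
    by_contra hge
    push_neg at hge
    have htop : LinearMap.ker (Matrix.toLin' (g : Matrix (Fin n) (Fin n) F) - 1) = ⊤ := by
      apply Submodule.eq_top_of_finrank_eq
      rw [Module.finrank_fin_fun]
      omega
    rw [LinearMap.ker_eq_top] at htop
    exact hT1 (sub_eq_zero.mp htop)
  have hk0 : k ≠ 0 := by
    rintro rfl
    omega
  have : orderOf ((Fintype.card F : ℕ) : ZMod r) ≤
      orderOf ((Fintype.card F : ℕ) : ZMod r) * k :=
    Nat.le_mul_of_pos_right _ (Nat.pos_of_ne_zero hk0)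
  omega

end Cfsg.Agent.Helper41
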