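import Mathlib
import Cfsg.Agent.Helper90.IMDefs
import Cfsg.Agent.Helper90.BGChain
import Cfsg.Agent.Helper46.BGLIRR

set_option autoImplicit false

namespace Cfsg.Agent.Helper41

open Module Polynomial Cfsg.Agent.Helper90.IM

variable {F : Type*} [Field F] {V : Type*} [AddCommGroup V] [Module F V] [FiniteDimensional F V]

/-- PIECE MONO1 (CALL S5958, helper90) -/
theorem dec_of_perm_basis {t : ℕ} (T : V →ₗ[F] V) (b : Basis (Fin t) F V) (π : Equiv.Perm (Fin t))
    (hb : ∀ i, T (b i) = b (π i)) :
    IsDec T 1 (fun i => Submodule.span F {b i}) π := by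
  refine ⟨fun i => ?_, ?_, ?_, fun j => ?_⟩
  · exact finrank_span_singleton (b.ne_zero i)
  · exact b.linearIndependent.iSupIndep_span_singleton
  · rw [← Submodule.span_range_eq_iSup, b.span_eq]
  · rw [Submodule.map_span, Set.image_singleton, hb]

end Cfsg.Agent.Helper41
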