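import Mathlib
import Cfsg.Agent.Helper90.IMDefs
import Cfsg.Agent.Helper90.BGChain
import Cfsg.Agent.Helper46.BGLIRR

set_option autoImplicit false

namespace Cfsg.Agent.Helper41

open Module Polynomial Cfsg.Agent.Helper90.IM

variable {F : Type*} [Field F] {V : Type*} [AddCommGroup V] [Module F V] [FiniteDimensional F V]

/-- PIECE N1 (CALL S5958, helper90) -/
theorem fix_ge_of_moved (T : V →ₗ[F] V) (r : ℕ) (hr : r.Prime) (hT : T ^ r = 1) {t a : ℕ}
    (D : Fin t → Submodule F V) (σ : Equiv.Perm (Fin t)) (hD : IsDec T a D σ) (j : Fin t)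
    (hj : σ j ≠ j) : a ≤ finrank F (LinearMap.ker (T - 1)) := by
  obtain ⟨hfr, hind, htop, hmap⟩ := hD
  rcases Nat.eq_zero_or_pos a with rfl | ha
  · exact Nat.zero_le _
  have hDinj : Function.Injective D := by
    intro i i' hii'
    by_contra hne
    have hdis := hind.pairwiseDisjoint hne
    rw [Function.onFun, hii', disjoint_self] at hdis
    have := hfr i'
    rw [hdis, finrank_bot] at this
    omega
  have hpow : ∀ (i : ℕ) (k : Fin t), (D k).map (T ^ i) = D ((σ ^ i) k) := by
    intro i
    induction i with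
    | zero =>
      intro k
      rw [pow_zero, pow_zero, Module.End.one_eq_id, Submodule.map_id, Equiv.Perm.one_apply]
    | succ i ih =>
      intro k
      rw [pow_succ, Module.End.mul_eq_comp, Submodule.map_comp, hmap, ih, pow_succ,
        Equiv.Perm.mul_apply]
  have hσr : (σ ^ r) j = j := by
    apply hDinj
    rw [← hpow, hT, Module.End.one_eq_id, Submodule.map_id]
  have hmove : ∀ i, 0 < i → i < r → (σ ^ i) j ≠ j := by
    intro i hi0 hir hfix
    have hper : Function.IsPeriodicPt σ i j := by
      rw [Function.IsPeriodicPt, Function.IsFixedPt, Equiv.Perm.iterate_eq_pow]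
      exact hfix
    have hperr : Function.IsPeriodicPt σ r j := by
      rw [Function.IsPeriodicPt, Function.IsFixedPt, Equiv.Perm.iterate_eq_pow]
      exact hσr
    have h1 := hper.minimalPeriod_dvd
    have h2 := hperr.minimalPeriod_dvd
    rcases (Nat.dvd_prime hr).mp h2 with h3 | h3
    · have h4 := Function.isPeriodicPt_minimalPeriod σ j
      rw [h3, Function.IsPeriodicPt, Function.IsFixedPt, Function.iterate_one] at h4
      exact hj h4
    · rw [h3] at h1
      have := Nat.le_of_dvd hi0 h1
      omega
  have hSker : ∀ v, (∑ i ∈ Finset.range r, T ^ i) v ∈ LinearMap.ker (T - 1) := by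
    intro v
    rw [LinearMap.mem_ker, ← Module.End.mul_apply, mul_geom_sum, hT, sub_self,
      LinearMap.zero_apply]
  have hinj : ∀ v ∈ D j, (∑ i ∈ Finset.range r, T ^ i) v = 0 → v = 0 := by
    intro v hv hS
    have hsplit : (∑ i ∈ Finset.range r, T ^ i) v =
        v + ∑ i ∈ (Finset.range r).erase 0, (T ^ i) v := by
      rw [LinearMap.sum_apply,
        ← Finset.add_sum_erase (Finset.range r) _ (Finset.mem_range.mpr hr.pos)]
      simp
    have hrest : ∑ i ∈ (Finset.range r).erase 0, (T ^ i) v ∈ ⨆ (k) (_ : k ≠ j), D k := by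
      apply Submodule.sum_mem
      intro i hi
      rw [Finset.mem_erase, Finset.mem_range] at hi
      have hmem : (T ^ i) v ∈ D ((σ ^ i) j) := by
        rw [← hpow]
        exact Submodule.mem_map_of_mem hv
      exact Submodule.mem_iSup_of_mem _
        (Submodule.mem_iSup_of_mem (hmove i (Nat.pos_of_ne_zero hi.1) hi.2) hmem)
    have hv2 : v ∈ ⨆ (k) (_ : k ≠ j), D k := by
      have : v = - ∑ i ∈ (Finset.range r).erase 0, (T ^ i) v := by
        rw [hS] at hsplit
        exact eq_neg_of_add_eq_zero_left hsplit.symm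
      rw [this]
      exact Submodule.neg_mem _ hrest
    have := (hind j).le_bot (Submodule.mem_inf.mpr ⟨hv, hv2⟩)
    simpa using this
  have hker : LinearMap.ker ((∑ i ∈ Finset.range r, T ^ i).domRestrict (D j)) = ⊥ := by
    rw [LinearMap.ker_eq_bot']
    intro v hv
    exact Subtype.ext (hinj v v.2 hv)
  have hrange : LinearMap.range ((∑ i ∈ Finset.range r, T ^ i).domRestrict (D j)) ≤
      LinearMap.ker (T - 1) := by
    rintro _ ⟨v, rfl⟩
    exact hSker v
  calc a = finrank F (D j) := (hfr j).symm
    _ = finrank F (LinearMap.range ((∑ i ∈ Finset.range r, T ^ i).domRestrict (D j))) :=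
      (LinearMap.finrank_range_of_inj (LinearMap.ker_eq_bot.mp hker)).symm
    _ ≤ _ := Submodule.finrank_mono hrange

end Cfsg.Agent.Helper41
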