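import Mathlib
import Cfsg.Agent.Helper90.IMDefs
import Cfsg.Agent.Helper90.BGChain
import Cfsg.Agent.Helper46.BGLIRR

set_option autoImplicit false

namespace Cfsg.Agent.Helper41

open Module Polynomial Cfsg.Agent.Helper90.IM

variable {F : Type*} [Field F] {V : Type*} [AddCommGroup V] [Module F V] [FiniteDimensional F V]

/-- The dimensions of an independent family add up. -/
theorem im_sum_finrank_le {ι : Type*} [Fintype ι] (E : ι → Submodule F V) (h : iSupIndep E) :
    ∑ i, finrank F (E i) ≤ finrank F (⨆ i, E i : Submodule F V) := by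
  classical
  have key : ∀ s : Finset ι,
      ∑ i ∈ s, finrank F (E i) = finrank F (⨆ i ∈ s, E i : Submodule F V) := by
    intro s
    induction s using Finset.induction_on with
    | empty =>
      have h0 : (⨆ i ∈ (∅ : Finset ι), E i : Submodule F V) = ⊥ := by simp
      rw [Finset.sum_empty, h0, finrank_bot]
    | insert a s ha ih =>
      rw [Finset.sum_insert ha, Finset.iSup_insert, ih]
      have hdis : Disjoint (E a) (⨆ i ∈ s, E i) := by
        have := h.disjoint_biSup (x := a) (y := (s : Set ι)) (by simpa using ha)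
        simpa using this
      have h2 := Submodule.finrank_sup_add_finrank_inf_eq (E a) (⨆ i ∈ s, E i)
      rw [hdis.eq_bot, finrank_bot, add_zero] at h2
      exact h2.symm
  have h3 := key Finset.univ
  have h4 : (⨆ i ∈ (Finset.univ : Finset ι), E i : Submodule F V) = ⨆ i, E i := by simp
  rw [h4] at h3
  exact h3.le

/-- PIECE N2 (CALL S5958, helper90) -/
theorem fix_ge_of_invariant (T : V →ₗ[F] V) (r c : ℕ) (hrF : (r : F) ≠ 0) (hT : T ^ r = 1)
    (hc : 0 < c)
    (hd : ∀ g : F[X], Irreducible g → g ∣ ∑ j ∈ Finset.range r, (X : F[X]) ^ j → g.natDegree = c)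
    {t a : ℕ} (D : Fin t → Submodule F V) (hD : IsDec T a D 1) :
    t * (a % c) ≤ finrank F (LinearMap.ker (T - 1)) := by
  obtain ⟨hfr, hind, htop, hmap⟩ := hD
  have hE : ∀ j, a % c ≤ finrank F (D j ⊓ LinearMap.ker (T - 1) : Submodule F V) := by
    intro j
    have hDj : (D j).map T ≤ D j := by
      rw [hmap j, Equiv.Perm.one_apply]
    obtain ⟨k, hk⟩ := Cfsg.Agent.Helper90.BG.cyc_dvd T r c hrF hT hd (D j) hDj
    rw [hfr j] at hk
    have hle : finrank F (D j ⊓ LinearMap.ker (T - 1) : Submodule F V) ≤ a :=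
      hfr j ▸ Submodule.finrank_mono inf_le_left
    have hmod : finrank F (D j ⊓ LinearMap.ker (T - 1) : Submodule F V) % c = a % c := by
      have : a = finrank F (D j ⊓ LinearMap.ker (T - 1) : Submodule F V) + c * k := by omega
      conv_rhs => rw [this, Nat.add_mul_mod_self_left]
    rw [← hmod]
    exact Nat.mod_le _ _
  have hindE : iSupIndep (fun j => D j ⊓ LinearMap.ker (T - 1)) :=
    hind.mono (fun j => inf_le_left)
  have h1 := im_sum_finrank_le _ hindE
  have h2 : finrank F (⨆ j, D j ⊓ LinearMap.ker (T - 1) : Submodule F V) ≤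
      finrank F (LinearMap.ker (T - 1)) :=
    Submodule.finrank_mono (iSup_le fun j => inf_le_right)
  calc t * (a % c) = ∑ _j : Fin t, a % c := by simp
    _ ≤ ∑ j, finrank F (D j ⊓ LinearMap.ker (T - 1) : Submodule F V) :=
      Finset.sum_le_sum (fun j _ => hE j)
    _ ≤ _ := h1.trans h2

end Cfsg.Agent.Helper41
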