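import Mathlib
import Cfsg.Agent.Helper90.IMDefs
import Cfsg.Agent.Helper90.BGChain
import Cfsg.Agent.Helper46.BGLIRR

set_option autoImplicit false

namespace Cfsg.Agent.Helper41

open Module Polynomial Cfsg.Agent.Helper90.IM

variable {F : Type*} [Field F] {V : Type*} [AddCommGroup V] [Module F V] [FiniteDimensional F V]

/-- PIECE N3 (CALL S5958, helper90) -/
theorem le_fix_of_small (T : V →ₗ[F] V) (r c : ℕ) (hrF : (r : F) ≠ 0) (hT : T ^ r = 1)
    (hd : ∀ g : F[X], Irreducible g → g ∣ ∑ j ∈ Finset.range r, (X : F[X]) ^ j → g.natDegree = c)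
    (W : Submodule F V) (hW : W.map T ≤ W) (h : finrank F W < c) :
    W ≤ LinearMap.ker (T - 1) := by
  obtain ⟨k, hk⟩ := Cfsg.Agent.Helper90.BG.cyc_dvd T r c hrF hT hd W hW
  have h1 : finrank F (W ⊓ LinearMap.ker (T - 1) : Submodule F V) ≤ finrank F W :=
    Submodule.finrank_mono inf_le_left
  have hk0 : k = 0 := by
    by_contra hk0
    have : c ≤ c * k := Nat.le_mul_of_pos_right c (Nat.pos_of_ne_zero hk0)
    omega
  subst hk0
  have h2 : finrank F (W ⊓ LinearMap.ker (T - 1) : Submodule F V) = finrank F W := by omega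
  have h3 : W ⊓ LinearMap.ker (T - 1) = W := Submodule.eq_of_le_of_finrank_eq inf_le_left h2
  rw [← h3]
  exact inf_le_right

end Cfsg.Agent.Helper41
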