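import Mathlib
import Cfsg.Agent.Helper90.IMDefs
import Cfsg.Agent.Helper90.BGChain
import Cfsg.Agent.Helper46.BGLIRR

set_option autoImplicit false

namespace Cfsg.Agent.Helper41

open Module Polynomial Cfsg.Agent.Helper90.IM

variable {F : Type*} [Field F] [Fintype F]

/-- PIECE PHIIRR (CALL S5958, helper90) -/
theorem phi_irreducible (r : ℕ) [Fact r.Prime] (hrF : (r : F) ≠ 0)
    (hc : orderOf ((Fintype.card F : ℕ) : ZMod r) = r - 1) :
    Irreducible (∑ j ∈ Finset.range r, (X : F[X]) ^ j) := by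
  have hr : r.Prime := Fact.out
  have hne : (∑ j ∈ Finset.range r, (X : F[X]) ^ j) ≠ 0 := Cfsg.Agent.Helper90.BG.phi_ne_zero r hrF
  have hdeg : (∑ j ∈ Finset.range r, (X : F[X]) ^ j).natDegree = r - 1 := by
    have h1 : (X - C (1 : F)) * (∑ j ∈ Finset.range r, (X : F[X]) ^ j) = X ^ r - C (1 : F) := by
      rw [map_one, mul_geom_sum]
    have h2 := congrArg Polynomial.natDegree h1
    rw [Polynomial.natDegree_mul (Polynomial.X_sub_C_ne_zero 1) hne, Polynomial.natDegree_X_sub_C,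
      Polynomial.natDegree_X_pow_sub_C] at h2
    omega
  have hnu : ¬ IsUnit (∑ j ∈ Finset.range r, (X : F[X]) ^ j) := by
    intro hu
    have h0 := Polynomial.natDegree_eq_zero_of_isUnit hu
    have h2 : 2 ≤ r := hr.two_le
    omega
  obtain ⟨g, hg, hgdvd⟩ := WfDvdMonoid.exists_irreducible_factor hnu hne
  have hgdeg := Cfsg.Agent.Helper46.bgl_irr_factor_degree r hrF g hg hgdvd
  obtain ⟨k, hk⟩ := hgdvd
  have hk0 : k ≠ 0 := by
    rintro rfl
    rw [mul_zero] at hk
    exact hne hk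
  have hkdeg : k.natDegree = 0 := by
    have h3 := Polynomial.natDegree_mul hg.ne_zero hk0
    rw [← hk, hdeg, hgdeg, hc] at h3
    omega
  have hku : IsUnit k := by
    rw [Polynomial.eq_C_of_natDegree_eq_zero hkdeg] at hk0 ⊢
    have : k.coeff 0 ≠ 0 := fun h => hk0 (by rw [h, map_zero])
    exact Polynomial.isUnit_C.mpr (isUnit_iff_ne_zero.mpr this)
  rw [hk]
  exact (irreducible_mul_isUnit hku).mpr hg

end Cfsg.Agent.Helper41
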