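import Mathlib
import Cfsg.Agent.Helper90.IMDefs
import Cfsg.Agent.Helper90.BGChain
import Cfsg.Agent.Helper46.BGLIRR

set_option autoImplicit false

namespace Cfsg.Agent.Helper41

open Module Polynomial Cfsg.Agent.Helper90.IM

variable {F : Type*} [Field F] {V : Type*} [AddCommGroup V] [Module F V] [FiniteDimensional F V]

/-- PIECE SUB3 (CALL S5958, helper90) -/
theorem sub_cyc (T : V →ₗ[F] V) (r c : ℕ) (hrF : (r : F) ≠ 0) (hT : T ^ r = 1) (hc : 0 < c)
    (hd : ∀ g : F[X], Irreducible g → g ∣ ∑ j ∈ Finset.range r, (X : F[X]) ^ j → g.natDegree = c)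
    (W : Submodule F V) (hW : W.map T ≤ W) (m : ℕ) (hm : m ≤ finrank F W)
    (hmod : m % c ≤ finrank F W % c) :
    ∃ U : Submodule F V, U ≤ W ∧ U.map T ≤ U ∧ finrank F U = m := by
  have hW' : ∀ x ∈ W, T x ∈ W := fun x hx => hW (Submodule.mem_map_of_mem hx)
  have hT' : (T.restrict hW') ^ r = 1 := by
    rw [Module.End.pow_restrict]
    ext x
    simp [hT]
  obtain ⟨U0, hU0, hU0inv⟩ :=
    Cfsg.Agent.Helper90.BG.cyc_exists_dim (T.restrict hW') r c hrF hT' hc hd m hm hmod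
  refine ⟨U0.map W.subtype, Submodule.map_subtype_le W U0, ?_, ?_⟩
  · rintro _ ⟨_, ⟨u, hu, rfl⟩, rfl⟩
    exact ⟨T.restrict hW' u, hU0inv (Submodule.mem_map_of_mem hu), rfl⟩
  · rw [Submodule.finrank_map_subtype_eq, hU0]

end Cfsg.Agent.Helper41
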