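import Mathlib
import Cfsg.Agent.Helper77.K2Red
import Cfsg.Agent.Helper77.Defect
import Cfsg.Agent.Helper15.PiPartBrauer
import Cfsg.Agent.Helper15.CharInner
import Cfsg.Agent.Helper73.GenSpan

/-!
# Piece F2 of CALL S4648 (helper77): `kul_classfun_res`

A class function with values in the residue field that is constant on `p`-sections is a
combination of the reductions of the irreducible characters.
-/

set_option autoImplicit false
open Cfsg Cfsg.Agent.Helper77

namespace Cfsg.Agent.Helper41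

universe u v w

variable {G : Type u} [Group G] [Fintype G] {M : Ideal Cfsg.AlgInt} (hM : M.IsMaximal)

theorem kul_classfun_res (p : ℕ) [Fact p.Prime] (hp : (p : Cfsg.AlgInt) ∈ M)
    (t : G → ResField M hM) (hcl : ∀ g h : G, t (h * g * h⁻¹) = t g)
    (hpp : ∀ x y : G, Commute x y → (∃ j : ℕ, orderOf x = p ^ j) → t (x * y) = t y) :
    ∃ c : Cfsg.IrrCharacter G → ResField M hM, ∀ g : G,
      t g = ∑ᶠ χ : Cfsg.IrrCharacter G, c χ * resMap M hM ((χ : G → ℂ) g) := by
  classical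
  have hpP : p.Prime := Fact.out
  have hMod : Cfsg.IsPModular p M := ⟨hpP, hM, hp⟩
  obtain ⟨e, n, hn, hcard⟩ :=
    Nat.exists_eq_pow_mul_and_not_dvd (Nat.card_pos (α := G)).ne' p hpP.ne_one
  have hpn : Nat.Coprime p n := (Nat.Prime.coprime_iff_not_dvd hpP).mpr hn
  have hcop : Nat.Coprime (p ^ e) n := Nat.Coprime.pow_left _ hpn
  have hbez := Nat.gcd_eq_gcd_ab n (p ^ e)
  rw [hcop.symm.gcd_eq_one] at hbez
  obtain ⟨s, hs⟩ : ∃ s : ℤ, s = Nat.gcdA n (p ^ e) := ⟨_, rfl⟩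
  obtain ⟨r, hr⟩ : ∃ r : ℤ, r = Nat.gcdB n (p ^ e) := ⟨_, rfl⟩
  have hst : (n : ℤ) * s + ((p ^ e : ℕ) : ℤ) * r = 1 := by
    rw [hs, hr, ← hbez]
    simp
  letI : Fintype (Cfsg.IrrCharacter G) := Fintype.ofFinite _
  letI : Fintype (ConjClasses G) := Fintype.ofFinite _
  have hpow : ∀ y : G, y ^ (p ^ e * n) = 1 := fun y => by
    rw [← hcard]
    exact pow_card_eq_one'
  -- step 1: `t` only sees the `p'`-part
  have h1 : ∀ x : G, t x = t (x ^ (((p ^ e : ℕ) : ℤ) * r)) := by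
    intro x
    have hx : x = x ^ ((n : ℤ) * s) * x ^ (((p ^ e : ℕ) : ℤ) * r) := by
      rw [← zpow_add, hst, zpow_one]
    have hord : (x ^ ((n : ℤ) * s)) ^ (p ^ e) = 1 := by
      rw [← zpow_natCast, ← zpow_mul]
      have h3 : (n : ℤ) * s * ((p ^ e : ℕ) : ℤ) = ((p ^ e * n : ℕ) : ℤ) * s := by
        push_cast
        ring
      rw [h3, zpow_mul, zpow_natCast, hpow, one_zpow]
    obtain ⟨j, -, hj⟩ := (Nat.dvd_prime_pow hpP).mp (orderOf_dvd_of_pow_eq_one hord)
    have h4 := hpp (x ^ ((n : ℤ) * s)) (x ^ (((p ^ e : ℕ) : ℤ) * r))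
      ((Commute.refl x).zpow_zpow _ _) ⟨j, hj⟩
    rw [← hx] at h4
    exact h4
  -- the functions `θ_C`
  obtain ⟨θ, hθ⟩ : ∃ θ : ConjClasses G → G → ℂ, θ = fun C z =>
      if IsConj (z ^ (((p ^ e : ℕ) : ℤ) * r)) (Quotient.out C) then (n : ℂ) else 0 := ⟨_, rfl⟩
  have hmem : ∀ C, θ C ∈ Cfsg.Agent.Helper73.genSpanA G := by
    intro C
    refine Cfsg.Agent.Helper15.piPart_mem_genSpanA (p ^ e) n hcard hcop (Quotient.out C) s r hst
      (θ C) ?_ ?_
    · intro z hz
      rw [hθ]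
      exact if_pos hz
    · intro z hz
      rw [hθ]
      exact if_neg hz
  have hA : ∀ C (χ : Cfsg.IrrCharacter G), Cfsg.MemLocalRing M (Cfsg.classInner (θ C) χ) :=
    fun C χ => memLocalRing_of_isIntegral hM
      (Cfsg.Agent.Helper73.classInner_algInt_of_mem_genSpanA (hmem C) χ)
  have hchi : ∀ (χ : Cfsg.IrrCharacter G) (x : G), Cfsg.MemLocalRing M ((χ : G → ℂ) x) :=
    fun χ x => memLocalRing_of_isIntegral hM (irr_isIntegral χ x)
  have h2 : ∀ (C : ConjClasses G) (x : G), resMap M hM (θ C x) =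
      ∑ χ : Cfsg.IrrCharacter G,
        resMap M hM (Cfsg.classInner (θ C) χ) * resMap M hM ((χ : G → ℂ) x) := by
    intro C x
    have hsum := Cfsg.Agent.Helper15.classFun_eq_sum
      (Cfsg.Agent.Helper73.isClassFunction_of_mem_genSpanA (hmem C))
    have e1 := congrFun hsum x
    simp only [Finset.sum_apply, Pi.smul_apply, smul_eq_mul] at e1
    have e2 : resMap M hM (θ C x) = resMap M hM (∑ χ : Cfsg.IrrCharacter G,
        Cfsg.classInner (θ C) χ * (χ : G → ℂ) x) := congrArg (resMap M hM) e1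
    rw [e2, resMap_sum hM _ _ (fun χ _ => memLocalRing_mul hM (hA C χ) (hchi χ x))]
    refine Finset.sum_congr rfl fun χ _ => ?_
    rw [resMap_mul hM (hA C χ) (hchi χ x)]
  have hnR : Cfsg.MemLocalRing M (n : ℂ) :=
    memLocalRing_of_isIntegral hM (by exact_mod_cast isIntegral_algebraMap (R := ℤ) (x := (n : ℤ)))
  have hn0 : resMap M hM (n : ℂ) ≠ 0 := fun h =>
    not_memLocalIdeal_natCast hMod hn ((resMap_eq_zero_iff hM hnR).mp h)
  refine ⟨fun χ => ∑ C : ConjClasses G, t (Quotient.out C) * (resMap M hM (n : ℂ))⁻¹ *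
    resMap M hM (Cfsg.classInner (θ C) χ), fun g => ?_⟩
  rw [finsum_eq_sum_of_fintype]
  have h3 : t g = ∑ C : ConjClasses G,
      t (Quotient.out C) * (resMap M hM (n : ℂ))⁻¹ * resMap M hM (θ C g) := by
    rw [h1 g, Finset.sum_eq_single (ConjClasses.mk (g ^ (((p ^ e : ℕ) : ℤ) * r)))]
    · have hc : IsConj (g ^ (((p ^ e : ℕ) : ℤ) * r))
          (Quotient.out (ConjClasses.mk (g ^ (((p ^ e : ℕ) : ℤ) * r)))) :=
        ConjClasses.mk_eq_mk_iff_isConj.mp
          (Quotient.out_eq (ConjClasses.mk (g ^ (((p ^ e : ℕ) : ℤ) * r)))).symm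
      have h5 : θ (ConjClasses.mk (g ^ (((p ^ e : ℕ) : ℤ) * r))) g = n := by
        rw [hθ]
        exact if_pos hc
      rw [h5, mul_assoc, inv_mul_cancel₀ hn0, mul_one]
      obtain ⟨c, hc'⟩ := isConj_iff.mp hc
      rw [← hc', hcl]
    · intro C _ hC
      have h5 : θ C g = 0 := by
        rw [hθ]
        refine if_neg (fun h => hC ?_)
        exact ((ConjClasses.mk_eq_mk_iff_isConj.mpr h).trans (Quotient.out_eq C)).symm
      rw [h5, resMap_zero, mul_zero]
    · intro h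
      exact absurd (Finset.mem_univ _) h
  rw [h3]
  simp_rw [h2, Finset.mul_sum, Finset.sum_mul]
  rw [Finset.sum_comm]
  refine Finset.sum_congr rfl fun χ _ => Finset.sum_congr rfl fun C _ => ?_
  ring

end Cfsg.Agent.Helper41
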