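import Mathlib
import Cfsg.Prelude.Def_GeometricClasses
import Cfsg.Agent.Helper97.GForms

/-!
# Piece DISC of CALL S5871 (helper97): `o12p_plus_disc`

A non-degenerate quadratic form of plus type on a space of dimension `2m` has discriminant
`(-1)^m` times a non-zero square.
-/

set_option autoImplicit false
open Cfsg Cfsg.Geo Matrix
open scoped Kronecker

namespace Cfsg.Agent.Helper41

variable {ι : Type} [Fintype ι] [DecidableEq ι] {F : Type*} [Field F]

namespace O12pDisc

/-- the determinant of the block swap matrix. -/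
theorem det_swap_blocks (m : ℕ) :
    (Matrix.fromBlocks (0 : Matrix (Fin m) (Fin m) F) (1 : Matrix (Fin m) (Fin m) F)
      (1 : Matrix (Fin m) (Fin m) F) (0 : Matrix (Fin m) (Fin m) F)).det = (-1) ^ m := by
  have h1 : Matrix.fromBlocks (1 : Matrix (Fin m) (Fin m) F) (1 : Matrix (Fin m) (Fin m) F)
        (0 : Matrix (Fin m) (Fin m) F) (1 : Matrix (Fin m) (Fin m) F) *
      Matrix.fromBlocks (0 : Matrix (Fin m) (Fin m) F) (1 : Matrix (Fin m) (Fin m) F)
        (1 : Matrix (Fin m) (Fin m) F) (0 : Matrix (Fin m) (Fin m) F) =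
      Matrix.fromBlocks (1 : Matrix (Fin m) (Fin m) F) (1 : Matrix (Fin m) (Fin m) F)
        (1 : Matrix (Fin m) (Fin m) F) (0 : Matrix (Fin m) (Fin m) F) := by
    rw [Matrix.fromBlocks_multiply]
    simp
  have h2 := congrArg Matrix.det h1
  rw [Matrix.det_mul, Matrix.det_fromBlocks_zero₂₁, Matrix.det_one, one_mul, one_mul,
    Matrix.det_fromBlocks_one₁₁] at h2
  rw [h2]
  simp [Matrix.det_neg]

theorem det_fromBlocks_zero_left {m : ℕ} (A C : Matrix (Fin m) (Fin m) F) :
    (Matrix.fromBlocks 0 A Aᵀ C).det = (-1) ^ m * A.det ^ 2 := by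
  have h3 : Matrix.fromBlocks 0 A Aᵀ C =
      Matrix.fromBlocks A 0 C Aᵀ * Matrix.fromBlocks (0 : Matrix (Fin m) (Fin m) F)
        (1 : Matrix (Fin m) (Fin m) F) (1 : Matrix (Fin m) (Fin m) F)
        (0 : Matrix (Fin m) (Fin m) F) := by
    rw [Matrix.fromBlocks_multiply]
    simp
  rw [h3, Matrix.det_mul, Matrix.det_fromBlocks_zero₁₂, det_swap_blocks, Matrix.det_transpose]
  ring

end O12pDisc

open O12pDisc in
theorem o12p_plus_disc (Q : (ι → F) → F) (hQ : IsNondegenerateQuadraticForm Q) {m : ℕ}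
    (hcard : Fintype.card ι = 2 * m) (hplus : IsPlusTypeOn Q ⊤) :
    ∃ c : F, c ≠ 0 ∧ (gramMatrix (QuadraticMap.polar Q)).det = (-1) ^ m * c ^ 2 := by
  classical
  obtain ⟨U, -, hU, hdim⟩ := hplus
  have hsesq := Helper97.Gen.isSesq_of_bilinear hQ.polar_bilinear
  obtain ⟨G, hGdef⟩ : ∃ G : Matrix ι ι F, G = gramMatrix (QuadraticMap.polar Q) := ⟨_, rfl⟩
  have hpol : ∀ u v : ι → F, QuadraticMap.polar Q u v = u ⬝ᵥ (G *ᵥ v) := by
    intro u v
    rw [hGdef]
    exact hsesq.apply_eq u v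
  have hGdet : G.det ≠ 0 := by
    rw [hGdef]
    exact hsesq.det_gram_ne_zero (fun v hv => (hQ.nondegenerate v hv).1)
  rw [← hGdef]
  have hUdim : Module.finrank F U = m := by
    rw [finrank_top, Module.finrank_fintype_fun_eq_card, hcard] at hdim
    omega
  obtain ⟨W, hW⟩ := Submodule.exists_isCompl U
  have hWdim : Module.finrank F W = m := by
    have h1 := Submodule.finrank_add_eq_of_isCompl hW
    rw [hUdim, Module.finrank_fintype_fun_eq_card, hcard] at h1
    omega
  obtain ⟨b, hb⟩ : ∃ b : Module.Basis (Fin m ⊕ Fin m) F (ι → F), ∀ i, b (Sum.inl i) ∈ U := by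
    refine ⟨((Module.finBasisOfFinrankEq F U hUdim).prod
      (Module.finBasisOfFinrankEq F W hWdim)).map (Submodule.prodEquivOfIsCompl U W hW), ?_⟩
    intro i
    rw [Module.Basis.map_apply, Submodule.coe_prodEquivOfIsCompl', Module.Basis.prod_apply_inl_snd]
    simp
  obtain ⟨e⟩ : Nonempty (ι ≃ Fin m ⊕ Fin m) := by
    apply Fintype.card_eq.mp
    rw [hcard, Fintype.card_sum, Fintype.card_fin]
    ring
  obtain ⟨B, hBdef⟩ : ∃ B : Matrix ι (Fin m ⊕ Fin m) F, B = fun i j => b j i := ⟨_, rfl⟩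
  have hB : ∀ i j, B i j = b j i := fun i j => by rw [hBdef]
  have hentry : ∀ j k, (Bᵀ * G * B) j k = QuadraticMap.polar Q (b j) (b k) := by
    intro j k
    rw [hpol, Matrix.mul_apply, dotProduct]
    simp only [Matrix.mul_apply, Matrix.mulVec, dotProduct, Matrix.transpose_apply, hB,
      Finset.sum_mul, Finset.mul_sum]
    rw [Finset.sum_comm]
    refine Finset.sum_congr rfl fun i _ => Finset.sum_congr rfl fun i' _ => ?_
    ring
  obtain ⟨A, hAdef⟩ : ∃ A : Matrix (Fin m) (Fin m) F,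
      A = fun i i' => QuadraticMap.polar Q (b (Sum.inl i)) (b (Sum.inr i')) := ⟨_, rfl⟩
  obtain ⟨C, hCdef⟩ : ∃ C : Matrix (Fin m) (Fin m) F,
      C = fun i i' => QuadraticMap.polar Q (b (Sum.inr i)) (b (Sum.inr i')) := ⟨_, rfl⟩
  have hN : Bᵀ * G * B = Matrix.fromBlocks 0 A Aᵀ C := by
    ext j k
    rw [hentry]
    rcases j with j | j <;> rcases k with k | k
    · rw [Matrix.fromBlocks_apply₁₁, Matrix.zero_apply]
      unfold QuadraticMap.polar
      rw [hU _ (U.add_mem (hb j) (hb k)), hU _ (hb j), hU _ (hb k)]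
      simp
    · rw [Matrix.fromBlocks_apply₁₂, hAdef]
    · rw [Matrix.fromBlocks_apply₂₁, Matrix.transpose_apply, hAdef]
      exact QuadraticMap.polar_comm Q _ _
    · rw [Matrix.fromBlocks_apply₂₂, hCdef]
  obtain ⟨B₁, hB₁def⟩ : ∃ B₁ : Matrix (Fin m ⊕ Fin m) (Fin m ⊕ Fin m) F,
      B₁ = B.submatrix e.symm id := ⟨_, rfl⟩
  have hB₁det : B₁.det ≠ 0 := by
    have hli : LinearIndependent F B₁ᵀ.row := by
      have h0 : B₁ᵀ.row = (LinearEquiv.funCongrLeft F F e.symm).toLinearMap ∘ b := by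
        funext j a
        rw [hB₁def]
        show B (e.symm a) j = b j (e.symm a)
        rw [hB]
      rw [h0]
      exact b.linearIndependent.map' _ (LinearEquiv.ker _)
    have hu := Matrix.linearIndependent_rows_iff_isUnit.mp hli
    have hu' := (Matrix.isUnit_iff_isUnit_det _).mp hu
    rw [Matrix.det_transpose] at hu'
    exact hu'.ne_zero
  have hprod : B₁ᵀ * G.submatrix e.symm e.symm * B₁ = Bᵀ * G * B := by
    rw [hB₁def, Matrix.transpose_submatrix, Matrix.submatrix_mul_equiv,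
      Matrix.submatrix_mul_equiv, Matrix.submatrix_id_id]
  have hdet := congrArg Matrix.det hprod
  rw [hN, Matrix.det_mul, Matrix.det_mul, Matrix.det_transpose, Matrix.det_submatrix_equiv_self,
    det_fromBlocks_zero_left] at hdet
  have hAdet : A.det ≠ 0 := by
    intro h0
    rw [h0] at hdet
    have h1 : B₁.det * G.det * B₁.det ≠ 0 := mul_ne_zero (mul_ne_zero hB₁det hGdet) hB₁det
    apply h1
    rw [hdet]
    simp
  refine ⟨A.det / B₁.det, div_ne_zero hAdet hB₁det, ?_⟩
  field_simp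
  rw [← hdet]
  ring

end Cfsg.Agent.Helper41
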