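import Mathlib

/-! CALL S2787 (helper50), piece ACT. -/

set_option autoImplicit false

namespace Cfsg.Agent.Helper41

/-- PIECE ACT: the conjugation action of `H / C_H(V)` on `V` is a faithful action by
automorphisms. -/
theorem qr_act {G : Type*} [Group G] (V H : Subgroup G)
    (hHV : H ≤ Subgroup.normalizer (V : Set G))
    [hn : ((Subgroup.centralizer (V : Set G)).subgroupOf H).Normal] :
    ∃ φ : (↥H ⧸ (Subgroup.centralizer (V : Set G)).subgroupOf H) →* MulAut ↥V,
      Function.Injective φ ∧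
      ∀ (h : ↥H) (v : ↥V),
        ((φ (QuotientGroup.mk h) v : ↥V) : G) = (h : G) * (v : G) * (h : G)⁻¹ := by
  have hmem : ∀ (h : ↥H) (v : ↥V), (h : G) * (v : G) * (h : G)⁻¹ ∈ V := fun h v =>
    (Subgroup.mem_normalizer_iff.mp (hHV h.2) v).mp v.2
  have hmem' : ∀ (h : ↥H) (v : ↥V), (h : G)⁻¹ * (v : G) * (h : G) ∈ V := fun h v => by
    have := hmem h⁻¹ v
    simpa using this
  let φ₀ : ↥H →* MulAut ↥V :=
    { toFun := fun h =>
        { toFun := fun v => ⟨(h : G) * v * (h : G)⁻¹, hmem h v⟩
          invFun := fun v => ⟨(h : G)⁻¹ * v * (h : G), hmem' h v⟩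
          left_inv := fun v => Subtype.ext (by simp [mul_assoc])
          right_inv := fun v => Subtype.ext (by simp [mul_assoc])
          map_mul' := fun v w => Subtype.ext (by simp [mul_assoc]) }
      map_one' := by
        apply MulEquiv.ext
        intro v
        apply Subtype.ext
        simp
      map_mul' := fun h k => by
        apply MulEquiv.ext
        intro v
        apply Subtype.ext
        simp [mul_assoc] }
  have hφ₀ : ∀ (h : ↥H) (v : ↥V), ((φ₀ h v : ↥V) : G) = (h : G) * (v : G) * (h : G)⁻¹ :=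
    fun h v => rfl
  have hker : (Subgroup.centralizer (V : Set G)).subgroupOf H ≤ φ₀.ker := by
    intro h hh
    rw [Subgroup.mem_subgroupOf, Subgroup.mem_centralizer_iff] at hh
    rw [MonoidHom.mem_ker]
    apply MulEquiv.ext
    intro v
    apply Subtype.ext
    rw [hφ₀, ← hh v v.2]
    simp
  refine ⟨QuotientGroup.lift _ φ₀ hker, ?_, fun h v => rfl⟩
  rw [injective_iff_map_eq_one]
  intro x hx
  obtain ⟨h, rfl⟩ := QuotientGroup.mk_surjective x
  have hx' : φ₀ h = 1 := hx
  rw [QuotientGroup.eq_one_iff, Subgroup.mem_subgroupOf, Subgroup.mem_centralizer_iff]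
  intro v hv
  have h1 := hφ₀ h ⟨v, hv⟩
  rw [hx'] at h1
  have h2 : v = (h : G) * v * (h : G)⁻¹ := h1
  calc v * (h : G) = (h : G) * v * (h : G)⁻¹ * (h : G) := by rw [← h2]
    _ = (h : G) * v := by group

end Cfsg.Agent.Helper41
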