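import Mathlib

/-! CALL S2787 (helper50), piece CORE. -/

set_option autoImplicit false

namespace Cfsg.Agent.Helper41

/-- PIECE CORE: a group acting faithfully and irreducibly on an elementary abelian `p`-group has
no nontrivial normal `p`-subgroup. -/
theorem qr_core {Q M : Type*} [Group Q] [Finite Q] [CommGroup M] [Finite M] (p : ℕ)
    [Fact p.Prime] (hMp : ∀ x : M, x ^ p = 1) (φ : Q →* MulAut M) (hφ : Function.Injective φ)
    (hirr : ∀ U : Subgroup M, (∀ q : Q, ∀ u ∈ U, φ q u ∈ U) → U = ⊥ ∨ U = ⊤)
    (N : Subgroup Q) (hNn : N.Normal) (hN : IsPGroup p N) : N = ⊥ := by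
  have hp : p.Prime := Fact.out
  let U : Subgroup M :=
    { carrier := {m | ∀ n ∈ N, φ n m = m}
      one_mem' := fun n _ => map_one _
      mul_mem' := fun {a b} ha hb n hn => by rw [map_mul, ha n hn, hb n hn]
      inv_mem' := fun {a} ha n hn => by rw [map_inv, ha n hn] }
  have hU : ∀ m : M, m ∈ U ↔ ∀ n ∈ N, φ n m = m := fun m => Iff.rfl
  have hUinv : ∀ q : Q, ∀ u ∈ U, φ q u ∈ U := by
    intro q u hu
    rw [hU] at hu ⊢
    intro n hn
    have h1 : q⁻¹ * n * q ∈ N := by
      have := hNn.conj_mem n hn q⁻¹
      simpa using this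
    have h2 := hu _ h1
    calc φ n (φ q u) = φ q (φ (q⁻¹ * n * q) u) := by
          rw [← MulAut.mul_apply, ← MulAut.mul_apply, ← map_mul, ← map_mul]
          congr 2
          group
      _ = φ q u := by rw [h2]
  rcases hirr U hUinv with hbot | htop
  · by_cases hM : Subsingleton M
    · rw [eq_bot_iff]
      intro n _
      rw [Subgroup.mem_bot]
      apply hφ
      rw [map_one]
      apply MulEquiv.ext
      intro m
      exact Subsingleton.elim _ _
    · exfalso
      rw [not_subsingleton_iff_nontrivial] at hM
      letI : MulAction N M := MulAction.compHom M (φ.comp N.subtype)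
      have hsmul : ∀ (n : N) (m : M), n • m = φ n m := fun n m => rfl
      have hMpg : IsPGroup p M := fun m => ⟨1, by rw [pow_one]; exact hMp m⟩
      have hcardM : p ∣ Nat.card M := by
        rcases hMpg.card_eq_or_dvd with h1 | h1
        · exfalso
          have := Finite.one_lt_card (α := M)
          omega
        · exact h1
      have hmod := hN.card_modEq_card_fixedPoints M
      have hfix : MulAction.fixedPoints N M = (U : Set M) := by
        ext m
        rw [MulAction.mem_fixedPoints, SetLike.mem_coe, hU]
        constructor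
        · intro h n hn
          exact h ⟨n, hn⟩
        · intro h n
          exact h n n.2
      rw [hfix] at hmod
      have hcardU : Nat.card (U : Set M) = 1 := by
        have : Nat.card (U : Set M) = Nat.card U := rfl
        rw [this, hbot, Subgroup.card_bot]
      rw [hcardU] at hmod
      have h0 : Nat.card M % p = 0 := Nat.mod_eq_zero_of_dvd hcardM
      have h1 : Nat.card M % p = 1 % p := hmod
      rw [h0, Nat.mod_eq_of_lt hp.one_lt] at h1
      omega
  · rw [eq_bot_iff]
    intro n hn
    rw [Subgroup.mem_bot]
    apply hφ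
    rw [map_one]
    apply MulEquiv.ext
    intro m
    have hm : m ∈ U := htop ▸ Subgroup.mem_top m
    exact (hU m).mp hm n hn

end Cfsg.Agent.Helper41
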