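import Mathlib
import Cfsg.Agent.Helper41.BaerSuzuki
import Cfsg.Agent.Helper24.SL2Sec
import Cfsg.Agent.Helper24.Quadratic

/-! CALL S2787 (helper50), piece SL2. -/

set_option autoImplicit false

namespace Cfsg.Agent.Helper41

/-- PIECE SL2 (Baer–Suzuki + Helper24's `SL(2,p)`-involvement): a non-identity element acting
quadratically in a faithful action of a group without normal `p`-subgroups: a subgroup maps onto
`SL(2, p)`. -/
theorem qr_sl2 {Q M : Type*} [Group Q] [Finite Q] [CommGroup M] [Finite M] (p : ℕ)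
    [Fact p.Prime] (hp : p ≠ 2) (hMp : ∀ x : M, x ^ p = 1) (φ : Q →* MulAut M)
    (hφ : Function.Injective φ)
    (hcore : ∀ N : Subgroup Q, N.Normal → IsPGroup p N → N = ⊥)
    (a : Q) (ha1 : a ≠ 1) (ha : ∀ m : M, φ a (φ a m / m) = φ a m / m) :
    ∃ (K : Subgroup Q) (θ : ↥K →* Matrix.SpecialLinearGroup (Fin 2) (ZMod p)),
      Function.Surjective θ := by
  classical
  have hpodd : Odd p := (Fact.out : p.Prime).odd_of_ne_two hp
  -- the conjugacy class of `a`
  let Ka : Set Q := {x | ∃ g : Q, x = g * a * g⁻¹}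
  have hKa : ∀ x ∈ Ka, ∀ g : Q, g * x * g⁻¹ ∈ Ka := by
    rintro x ⟨g₀, rfl⟩ g
    exact ⟨g * g₀, by group⟩
  have haK : a ∈ Ka := ⟨1, by group⟩
  -- two conjugates generating a non-`p`-group
  obtain ⟨x, hx, y, hy, hnp⟩ : ∃ x ∈ Ka, ∃ y ∈ Ka,
      ¬ IsPGroup p (Subgroup.closure ({x, y} : Set Q)) := by
    by_contra hcon
    push_neg at hcon
    apply ha1
    have hmem : a ∈ sylowCore p Q := by
      rw [mem_sylowCore]
      intro P
      exact baer_suzuki_mem Ka hKa hcon a haK P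
    rw [hcore _ (sylowCore_normal p Q) (sylowCore_isPGroup p Q), Subgroup.mem_bot] at hmem
    exact hmem
  -- conjugates act quadratically
  have hquad : ∀ x ∈ Ka, ∀ m : M, φ x (φ x m / m) = φ x m / m := by
    rintro x ⟨g, rfl⟩ m
    have h1 : ∀ m' : M, φ (g * a * g⁻¹) m' = φ g (φ a (φ g⁻¹ m')) := by
      intro m'
      rw [map_mul, map_mul, MulAut.mul_apply, MulAut.mul_apply]
    have h2 : φ g (φ g⁻¹ m) = m := by
      rw [← MulAut.mul_apply, ← map_mul, mul_inv_cancel, map_one, MulAut.one_apply]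
    have h3 : ∀ m' : M, φ g⁻¹ (φ g m') = m' := by
      intro m'
      rw [← MulAut.mul_apply, ← map_mul, inv_mul_cancel, map_one, MulAut.one_apply]
    have h4 : φ (g * a * g⁻¹) m / m = φ g (φ a (φ g⁻¹ m) / φ g⁻¹ m) := by
      rw [h1, map_div, h2]
    rw [h4, h1, h3, ha]
  have hxX : x ∈ Subgroup.closure ({x, y} : Set Q) := Subgroup.subset_closure (by simp)
  have hyX : y ∈ Subgroup.closure ({x, y} : Set Q) := Subgroup.subset_closure (by simp)
  have hgen := Cfsg.Agent.Helper24.closure_pair_subtype_eq_top x y hxX hyX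
  obtain ⟨h, hh, hh1⟩ : ∃ h : Subgroup.closure ({x, y} : Set Q),
      (orderOf h).Coprime p ∧ h ≠ 1 := by
    by_contra hcon
    push_neg at hcon
    apply hnp
    have hcard : Nat.card (Subgroup.closure ({x, y} : Set Q)) =
        p ^ (Nat.card (Subgroup.closure ({x, y} : Set Q))).primeFactorsList.length := by
      apply Nat.eq_prime_pow_of_unique_prime_dvd Nat.card_pos.ne'
      intro r hr hrd
      by_contra hrp
      have := Fact.mk hr
      obtain ⟨g, hg⟩ := exists_prime_orderOf_dvd_card' r hrd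
      have hg1 : g = 1 := hcon g (by rw [hg]; exact (Nat.coprime_primes hr Fact.out).2 hrp)
      rw [hg1, orderOf_one] at hg
      exact hr.ne_one hg.symm
    exact IsPGroup.of_card hcard
  have hφh : (φ.comp (Subgroup.closure ({x, y} : Set Q)).subtype) h ≠ 1 := by
    intro h1
    apply hh1
    apply Subtype.ext
    apply hφ
    rw [Subgroup.coe_one, map_one]
    exact h1
  obtain ⟨K₀, θ₀, hθ₀⟩ := Cfsg.Agent.Helper24.exists_surj_sl2_of_quadratic_pair_mulAut p hpodd hMp
    (φ.comp (Subgroup.closure ({x, y} : Set Q)).subtype) ⟨x, hxX⟩ ⟨y, hyX⟩ hgen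
    (fun m => hquad x hx m) (fun m => hquad y hy m) ⟨h, hh, hφh⟩
  let e := K₀.equivMapOfInjective (Subgroup.closure ({x, y} : Set Q)).subtype
    (Subgroup.subtype_injective _)
  refine ⟨K₀.map (Subgroup.closure ({x, y} : Set Q)).subtype, θ₀.comp e.symm.toMonoidHom, ?_⟩
  intro s
  obtain ⟨k, hk⟩ := hθ₀ s
  refine ⟨e k, ?_⟩
  rw [MonoidHom.comp_apply]
  show θ₀ (e.symm (e k)) = s
  rw [MulEquiv.symm_apply_apply, hk]

end Cfsg.Agent.Helper41
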