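import Mathlib
import Cfsg.Agent.Helper5.SL2Sylow
import Cfsg.Agent.Helper87.S2788Defs
import Cfsg.Agent.Helper42.SLn

set_option autoImplicit false

namespace Cfsg.Agent.Helper41

open Cfsg.Agent Cfsg.Agent.Helper87

/-- PIECE K (normal subgroups of `SL₂(F)`, `|F| ≥ 4`, char ≠ 2). A non-central element acts
non-trivially on the `(-1)`-eigenspace of the central involution of a faithful module. -/
theorem s2788_faithful_minus {F : Type*} [Field F] [Fintype F] (hF4 : 4 ≤ Fintype.card F)
    {M : Type*} [AddCommGroup M] [DistribMulAction (Matrix.SpecialLinearGroup (Fin 2) F) M]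
    (h2 : ∀ m : M, m + m = 0 → m = 0)
    (hfaith : ∀ g : Matrix.SpecialLinearGroup (Fin 2) F, (∀ m : M, g • m = m) → g = 1)
    (h11 : negOneSL F ≠ 1)
    (g : Matrix.SpecialLinearGroup (Fin 2) F)
    (hg : g ∉ Subgroup.center (Matrix.SpecialLinearGroup (Fin 2) F)) :
    ∃ m : M, negOneSL F • m = -m ∧ g • m ≠ m := by
  classical
  by_contra hcon
  push_neg at hcon
  obtain ⟨a, ha0, ha1⟩ : ∃ a : F, a ≠ 0 ∧ a ^ 2 ≠ 1 := by
    by_contra hno
    push_neg at hno
    have hsub : (Finset.univ : Finset F) ⊆ {0, 1, -1} := by
      intro a _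
      by_cases ha : a = 0
      · simp [ha]
      · have h1 := hno a ha
        have h3 : (a - 1) * (a + 1) = 0 := by
          have : (a - 1) * (a + 1) = a ^ 2 - 1 := by ring
          rw [this, h1, sub_self]
        rcases mul_eq_zero.mp h3 with h | h
        · have : a = 1 := sub_eq_zero.mp h
          simp [this]
        · have : a = -1 := eq_neg_of_add_eq_zero_left h
          simp [this]
    have hcard := Finset.card_le_card hsub
    rw [Finset.card_univ] at hcard
    have h3 : ({0, 1, -1} : Finset F).card ≤ 3 := Finset.card_le_three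
    omega
  have hperf : commutator (Matrix.SpecialLinearGroup (Fin 2) F) = ⊤ :=
    Matrix.SL2.commutator_eq_top ha0 ha1
  let K : Subgroup (Matrix.SpecialLinearGroup (Fin 2) F) :=
    { carrier := {x | ∀ m : M, negOneSL F • m = -m → x • m = m}
      mul_mem' := by
        intro x y hx hy m hm
        rw [mul_smul, hy m hm, hx m hm]
      one_mem' := by intro m _; rw [one_smul]
      inv_mem' := by
        intro x hx m hm
        rw [inv_smul_eq_iff, hx m hm] }
  have hKn : K.Normal := by
    constructor
    intro x hx y m hm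
    have hm' : negOneSL F • (y⁻¹ • m) = -(y⁻¹ • m) := by
      rw [← mul_smul, negOneSL_comm, mul_smul, hm, smul_neg]
    show (y * x * y⁻¹) • m = m
    rw [mul_smul, mul_smul, hx _ hm', smul_inv_smul]
  have hgK : g ∈ K := fun m hm => hcon m hm
  rcases Helper42.SLn.normal_le_center_or_eq_top hperf K with h | h
  · exact hg (h hgK)
  · have hzK : negOneSL F ∈ K := h ▸ Subgroup.mem_top _
    have hzero : ∀ m : M, negOneSL F • m = -m → m = 0 := by
      intro m hm
      have := hzK m hm
      exact h2 m (eq_neg_iff_add_eq_zero.mp (this.symm.trans hm))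
    apply h11
    apply hfaith
    intro m
    have hmem : negOneSL F • (m - negOneSL F • m) = -(m - negOneSL F • m) := by
      rw [smul_sub, ← mul_smul, negOneSL_mul_self, one_smul, neg_sub]
    have := hzero _ hmem
    exact (sub_eq_zero.mp this).symm

end Cfsg.Agent.Helper41
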