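import Mathlib
import Cfsg.Agent.Helper67.BRA2

/-!
# CALL S0997 pieces FREE1, FREE2 (helper41): free actions on the set of pairs
-/

set_option autoImplicit false

universe u

namespace Cfsg.Agent.Helper41

/-- A free action: the order of the group divides the size of the set. -/
theorem s997_free_dvd {K X : Type*} [Group K] [MulAction K X]
    (h : ∀ x : X, MulAction.stabilizer K x = ⊥) : Nat.card K ∣ Nat.card X := by
  have e : X ≃ Quotient (MulAction.orbitRel K X) × K := MulAction.selfEquivOrbitsQuotientProd h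
  rw [Nat.card_congr e, Nat.card_prod]
  exact dvd_mul_left _ _

/-- FREE1 -/
theorem s997_pairs_dvd {G : Type u} [Group G] [Finite G] (z y : G) :
    Nat.card (Subgroup.centralizer ({z} : Set G)) ^ 2 ∣
      Nat.card {gh : G × G // gh.1 * z * gh.1⁻¹ * (gh.2 * z * gh.2⁻¹) = y} := by
  have hcz : ∀ c : Subgroup.centralizer ({z} : Set G), (c : G) * z = z * (c : G) := by
    intro c
    have := Subgroup.mem_centralizer_iff.mp c.2 z (Set.mem_singleton z)
    exact this.symm
  have hconj : ∀ (g : G) (c : Subgroup.centralizer ({z} : Set G)),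
      (g * (c : G)⁻¹) * z * (g * (c : G)⁻¹)⁻¹ = g * z * g⁻¹ := by
    intro g c
    have h1 : (c : G)⁻¹ * z * (c : G) = z := by
      rw [mul_assoc, ← hcz c, ← mul_assoc, inv_mul_cancel, one_mul]
    calc (g * (c : G)⁻¹) * z * (g * (c : G)⁻¹)⁻¹ = g * ((c : G)⁻¹ * z * (c : G)) * g⁻¹ := by group
      _ = g * z * g⁻¹ := by rw [h1]
  letI : MulAction (Subgroup.centralizer ({z} : Set G) × Subgroup.centralizer ({z} : Set G))
      {gh : G × G // gh.1 * z * gh.1⁻¹ * (gh.2 * z * gh.2⁻¹) = y} :=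
    { smul := fun k x => ⟨(x.1.1 * (k.1 : G)⁻¹, x.1.2 * (k.2 : G)⁻¹), by
        show (x.1.1 * (k.1 : G)⁻¹) * z * (x.1.1 * (k.1 : G)⁻¹)⁻¹ *
          ((x.1.2 * (k.2 : G)⁻¹) * z * (x.1.2 * (k.2 : G)⁻¹)⁻¹) = y
        rw [hconj, hconj]
        exact x.2⟩
      one_smul := by
        intro x
        apply Subtype.ext
        apply Prod.ext
        · show x.1.1 * ((1 : Subgroup.centralizer ({z} : Set G)) : G)⁻¹ = x.1.1
          simp
        · show x.1.2 * ((1 : Subgroup.centralizer ({z} : Set G)) : G)⁻¹ = x.1.2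
          simp
      mul_smul := by
        intro k k' x
        apply Subtype.ext
        apply Prod.ext
        · show x.1.1 * (((k * k').1 : Subgroup.centralizer ({z} : Set G)) : G)⁻¹
            = x.1.1 * (k'.1 : G)⁻¹ * (k.1 : G)⁻¹
          rw [Prod.fst_mul, Subgroup.coe_mul, mul_inv_rev, mul_assoc]
        · show x.1.2 * (((k * k').2 : Subgroup.centralizer ({z} : Set G)) : G)⁻¹
            = x.1.2 * (k'.2 : G)⁻¹ * (k.2 : G)⁻¹
          rw [Prod.snd_mul, Subgroup.coe_mul, mul_inv_rev, mul_assoc] }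
  have hfree : ∀ x : {gh : G × G // gh.1 * z * gh.1⁻¹ * (gh.2 * z * gh.2⁻¹) = y},
      MulAction.stabilizer
        (Subgroup.centralizer ({z} : Set G) × Subgroup.centralizer ({z} : Set G)) x = ⊥ := by
    intro x
    rw [Subgroup.eq_bot_iff_forall]
    intro k hk
    rw [MulAction.mem_stabilizer_iff] at hk
    have h1 : x.1.1 * (k.1 : G)⁻¹ = x.1.1 := congrArg (fun w => w.1.1) hk
    have h2 : x.1.2 * (k.2 : G)⁻¹ = x.1.2 := congrArg (fun w => w.1.2) hk
    apply Prod.ext
    · apply Subtype.ext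
      have : (k.1 : G)⁻¹ = 1 := mul_left_cancel (h1.trans (mul_one _).symm)
      simpa using this
    · apply Subtype.ext
      have : (k.2 : G)⁻¹ = 1 := mul_left_cancel (h2.trans (mul_one _).symm)
      simpa using this
  have := s997_free_dvd hfree
  rwa [Nat.card_prod, ← pow_two] at this

/-- FREE2 -/
theorem s997_pairs_dvd_p {G : Type u} [Group G] [Finite G] {p : ℕ} [Fact p.Prime]
    (hodd : p ≠ 2) (P : Sylow p G) (hP : Nat.card (P : Subgroup G) = p)
    (hC : Nat.card (Subgroup.centralizer ((P : Subgroup G) : Set G)) = p)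
    (y : G) (hy : y ∈ (P : Subgroup G)) (hy1 : y ≠ 1) (z : G) (hz : orderOf z = 2) :
    p * Nat.card (Subgroup.centralizer ({z} : Set G)) ^ 2 ∣
      Nat.card {gh : G × G // gh.1 * z * gh.1⁻¹ * (gh.2 * z * gh.2⁻¹) = y} := by
  have hp : p.Prime := Fact.out
  have hcz : ∀ c : Subgroup.centralizer ({z} : Set G), (c : G) * z = z * (c : G) := by
    intro c
    have := Subgroup.mem_centralizer_iff.mp c.2 z (Set.mem_singleton z)
    exact this.symm
  have hcz' : ∀ c : Subgroup.centralizer ({z} : Set G), (c : G)⁻¹ * z * (c : G) = z := by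
    intro c
    rw [mul_assoc, ← hcz c, ← mul_assoc, inv_mul_cancel, one_mul]
  -- `P` is abelian
  haveI : IsCyclic (P : Subgroup G) := isCyclic_of_prime_card hP
  have hPy : ∀ x : (P : Subgroup G), (x : G) * y * (x : G)⁻¹ = y := by
    intro x
    haveI : IsMulCommutative (P : Subgroup G) := IsCyclic.commutative
    have h1 : x * (⟨y, hy⟩ : (P : Subgroup G)) = ⟨y, hy⟩ * x := mul_comm' _ _
    have h2 : (x : G) * y = y * (x : G) := congrArg Subtype.val h1
    rw [h2, mul_inv_cancel_right]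
  have hconj : ∀ (x : (P : Subgroup G)) (g h : G) (c1 c2 : Subgroup.centralizer ({z} : Set G)),
      g * z * g⁻¹ * (h * z * h⁻¹) = y →
      ((x : G) * g * (c1 : G)⁻¹) * z * ((x : G) * g * (c1 : G)⁻¹)⁻¹ *
        (((x : G) * h * (c2 : G)⁻¹) * z * ((x : G) * h * (c2 : G)⁻¹)⁻¹) = y := by
    intro x g h c1 c2 hgh
    calc ((x : G) * g * (c1 : G)⁻¹) * z * ((x : G) * g * (c1 : G)⁻¹)⁻¹ *
        (((x : G) * h * (c2 : G)⁻¹) * z * ((x : G) * h * (c2 : G)⁻¹)⁻¹)
        = (x : G) * (g * ((c1 : G)⁻¹ * z * (c1 : G)) * g⁻¹ *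
            (h * ((c2 : G)⁻¹ * z * (c2 : G)) * h⁻¹)) * (x : G)⁻¹ := by group
      _ = (x : G) * y * (x : G)⁻¹ := by rw [hcz', hcz', hgh]
      _ = y := hPy x
  letI : MulAction (↥(P : Subgroup G) × Subgroup.centralizer ({z} : Set G) ×
      Subgroup.centralizer ({z} : Set G))
      {gh : G × G // gh.1 * z * gh.1⁻¹ * (gh.2 * z * gh.2⁻¹) = y} :=
    { smul := fun k x => ⟨((k.1 : G) * x.1.1 * (k.2.1 : G)⁻¹, (k.1 : G) * x.1.2 * (k.2.2 : G)⁻¹),
        hconj k.1 x.1.1 x.1.2 k.2.1 k.2.2 x.2⟩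
      one_smul := by
        intro x
        apply Subtype.ext
        apply Prod.ext
        · show ((1 : (P : Subgroup G)) : G) * x.1.1 *
            ((1 : Subgroup.centralizer ({z} : Set G)) : G)⁻¹ = x.1.1
          simp
        · show ((1 : (P : Subgroup G)) : G) * x.1.2 *
            ((1 : Subgroup.centralizer ({z} : Set G)) : G)⁻¹ = x.1.2
          simp
      mul_smul := by
        intro k k' x
        apply Subtype.ext
        apply Prod.ext
        · show (((k * k').1 : (P : Subgroup G)) : G) * x.1.1 *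
              (((k * k').2.1 : Subgroup.centralizer ({z} : Set G)) : G)⁻¹
            = (k.1 : G) * ((k'.1 : G) * x.1.1 * (k'.2.1 : G)⁻¹) * (k.2.1 : G)⁻¹
          rw [Prod.fst_mul, Prod.snd_mul, Prod.fst_mul, Subgroup.coe_mul, Subgroup.coe_mul,
            mul_inv_rev]
          group
        · show (((k * k').1 : (P : Subgroup G)) : G) * x.1.2 *
              (((k * k').2.2 : Subgroup.centralizer ({z} : Set G)) : G)⁻¹
            = (k.1 : G) * ((k'.1 : G) * x.1.2 * (k'.2.2 : G)⁻¹) * (k.2.2 : G)⁻¹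
          rw [Prod.fst_mul, Prod.snd_mul, Prod.snd_mul, Subgroup.coe_mul, Subgroup.coe_mul,
            mul_inv_rev]
          group }
  have hfree : ∀ x : {gh : G × G // gh.1 * z * gh.1⁻¹ * (gh.2 * z * gh.2⁻¹) = y},
      MulAction.stabilizer (↥(P : Subgroup G) × Subgroup.centralizer ({z} : Set G) ×
        Subgroup.centralizer ({z} : Set G)) x = ⊥ := by
    intro x
    rw [Subgroup.eq_bot_iff_forall]
    intro k hk
    rw [MulAction.mem_stabilizer_iff] at hk
    have h1 : (k.1 : G) * x.1.1 * (k.2.1 : G)⁻¹ = x.1.1 := congrArg (fun w => w.1.1) hk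
    have h2 : (k.1 : G) * x.1.2 * (k.2.2 : G)⁻¹ = x.1.2 := congrArg (fun w => w.1.2) hk
    -- `k.1 = 1`
    have hk1 : (k.1 : G) = 1 := by
      by_contra hne
      have hx1 : (k.1 : G) = x.1.1 * (k.2.1 : G) * x.1.1⁻¹ := by
        calc (k.1 : G) = ((k.1 : G) * x.1.1 * (k.2.1 : G)⁻¹) * (k.2.1 : G) * x.1.1⁻¹ := by group
          _ = x.1.1 * (k.2.1 : G) * x.1.1⁻¹ := by rw [h1]
      have hcent := Cfsg.Agent.Helper67.br_centralizer_singleton P hP (k.1 : G) k.1.2 hne
      have hmem : x.1.1 * z * x.1.1⁻¹ ∈ Subgroup.centralizer ({(k.1 : G)} : Set G) := by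
        rw [Subgroup.mem_centralizer_iff]
        intro w hw
        rw [Set.mem_singleton_iff] at hw
        subst hw
        rw [hx1]
        calc x.1.1 * (k.2.1 : G) * x.1.1⁻¹ * (x.1.1 * z * x.1.1⁻¹)
            = x.1.1 * ((k.2.1 : G) * z) * x.1.1⁻¹ := by group
          _ = x.1.1 * (z * (k.2.1 : G)) * x.1.1⁻¹ := by rw [hcz]
          _ = x.1.1 * z * x.1.1⁻¹ * (x.1.1 * (k.2.1 : G) * x.1.1⁻¹) := by group
      rw [hcent] at hmem
      have hord : orderOf (x.1.1 * z * x.1.1⁻¹) = 2 := by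
        have hs : SemiconjBy x.1.1 z (x.1.1 * z * x.1.1⁻¹) := by
          show x.1.1 * z = x.1.1 * z * x.1.1⁻¹ * x.1.1
          group
        rw [← SemiconjBy.orderOf_eq x.1.1 hs]
        exact hz
      have hdvd : 2 ∣ p := by
        rw [← hC, ← hord]
        have := orderOf_dvd_natCard
          (⟨x.1.1 * z * x.1.1⁻¹, hmem⟩ : Subgroup.centralizer ((P : Subgroup G) : Set G))
        rwa [Subgroup.orderOf_mk] at this
      exact hodd ((Nat.prime_dvd_prime_iff_eq Nat.prime_two hp).mp hdvd).symm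
    rw [hk1, one_mul] at h1 h2
    apply Prod.ext
    · apply Subtype.ext
      simpa using hk1
    · apply Prod.ext
      · apply Subtype.ext
        have : (k.2.1 : G)⁻¹ = 1 := mul_left_cancel (h1.trans (mul_one _).symm)
        simpa using this
      · apply Subtype.ext
        have : (k.2.2 : G)⁻¹ = 1 := mul_left_cancel (h2.trans (mul_one _).symm)
        simpa using this
  have := s997_free_dvd hfree
  rwa [Nat.card_prod, Nat.card_prod, hP, ← pow_two] at this

end Cfsg.Agent.Helper41
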