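import Mathlib
import Cfsg.Agent.Helper9.OrdTools

/-!
# CALL S0997 pieces SYL7, TWOC, NCJ (helper41): pure group theory
-/

set_option autoImplicit false

universe u

namespace Cfsg.Agent.Helper41

/-- SYL7 -/
theorem s997_sylow_card {G : Type u} [Group G] [Finite G] (p q b g₀ : ℕ) [Fact p.Prime]
    (hq : q.Prime) (hpq : p ≠ q) (hcard : Nat.card G = p * q ^ b * g₀) (hg : g₀ < p - 1)
    (P : Sylow p G) : Nat.card (P : Subgroup G) = p := by
  have hp : p.Prime := Fact.out
  have hg0 : g₀ ≠ 0 := by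
    rintro rfl
    have := Nat.card_pos (α := G)
    rw [hcard, mul_zero] at this
    exact lt_irrefl _ this
  have hm : ¬ p ∣ q ^ b * g₀ := by
    intro h
    rcases (Nat.Prime.dvd_mul hp).1 h with h1 | h1
    · exact hpq ((Nat.prime_dvd_prime_iff_eq hp hq).1 (hp.dvd_of_dvd_pow h1))
    · have := Nat.le_of_dvd (Nat.pos_of_ne_zero hg0) h1
      omega
  have h := Cfsg.Agent.Helper9.OrdTools.sylow_card 1 (q ^ b * g₀)
    (hcard.trans (by rw [pow_one, mul_assoc])) hm P
  rw [pow_one] at h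
  exact h

/-- TWOC -/
theorem s997_two_central {G : Type u} [Group G] [Finite G] (b m : ℕ) (hb : 1 ≤ b)
    (hcard : Nat.card G = 2 ^ b * m) (hm : ¬ 2 ∣ m) :
    ∃ z : G, orderOf z = 2 ∧ 2 ^ b ∣ Nat.card (Subgroup.centralizer ({z} : Set G)) := by
  haveI : Fact (Nat.Prime 2) := ⟨Nat.prime_two⟩
  obtain ⟨Q⟩ : Nonempty (Sylow 2 G) := inferInstance
  have hQ : Nat.card (Q : Subgroup G) = 2 ^ b :=
    Cfsg.Agent.Helper9.OrdTools.sylow_card b m hcard hm Q
  have hQnt : Nontrivial (Q : Subgroup G) := by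
    rw [← Finite.one_lt_card_iff_nontrivial, hQ]
    exact Nat.one_lt_two_pow (by omega)
  have hQp : IsPGroup 2 (Q : Subgroup G) := Q.isPGroup'
  have hZnt : Nontrivial (Subgroup.center (Q : Subgroup G)) := hQp.center_nontrivial
  have hZp : IsPGroup 2 (Subgroup.center (Q : Subgroup G)) := hQp.to_subgroup _
  have h2 : 2 ∣ Nat.card (Subgroup.center (Q : Subgroup G)) := by
    rcases hZp.card_eq_or_dvd with h | h
    · exfalso
      have := Finite.one_lt_card_iff_nontrivial.mpr hZnt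
      omega
    · exact h
  obtain ⟨z', hz'⟩ := exists_prime_orderOf_dvd_card' 2 h2
  refine ⟨((z' : (Q : Subgroup G)) : G), ?_, ?_⟩
  · rw [Subgroup.orderOf_coe, Subgroup.orderOf_coe]
    exact hz'
  · rw [← hQ]
    apply Subgroup.card_dvd_of_le
    intro x hx
    rw [Subgroup.mem_centralizer_iff]
    intro w hw
    rw [Set.mem_singleton_iff] at hw
    subst hw
    have hc := Subgroup.mem_center_iff.mp z'.2 ⟨x, hx⟩
    have := congrArg (Subtype.val) hc
    simpa using this.symm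

/-- NCJ -/
theorem s997_not_conj_inv {G : Type u} [Group G] [Finite G] {p : ℕ} [Fact p.Prime]
    (hodd : p ≠ 2) (P : Sylow p G) (hP : Nat.card (P : Subgroup G) = p) (e : ℕ)
    (he : (Subgroup.centralizer ((P : Subgroup G) : Set G)).relIndex
        (Subgroup.normalizer ((P : Subgroup G) : Set G)) = e) (heo : ¬ 2 ∣ e)
    (y : G) (hy : y ∈ (P : Subgroup G)) (hy1 : y ≠ 1) : ¬ IsConj y y⁻¹ := by
  have hp : p.Prime := Fact.out
  intro hconj
  obtain ⟨g, hg⟩ := isConj_iff.mp hconj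
  -- `P = zpowers y`
  have hord : orderOf y = p := by
    have h1 : orderOf y ∣ p := by
      rw [← hP]
      have := orderOf_dvd_natCard (⟨y, hy⟩ : (P : Subgroup G))
      rwa [Subgroup.orderOf_mk] at this
    rcases (Nat.dvd_prime hp).mp h1 with h | h
    · exact absurd (orderOf_eq_one_iff.mp h) hy1
    · exact h
  have hPz : Subgroup.zpowers y = (P : Subgroup G) := by
    apply Subgroup.eq_of_le_of_card_ge
    · rw [Subgroup.zpowers_le]; exact hy
    · rw [Nat.card_zpowers, hord, hP]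
  have hg' : g⁻¹ * y * g = y⁻¹ := by
    have h1 : y = g⁻¹ * y⁻¹ * g := by rw [← hg]; group
    have h2 : (g⁻¹ * y * g) * (g⁻¹ * y⁻¹ * g) = 1 := by group
    rw [← h1] at h2
    exact eq_inv_of_mul_eq_one_left h2
  -- conjugation by `g` and `g⁻¹` preserve `P`
  have hmap : ∀ (k : G), (k * y * k⁻¹ = y⁻¹) → ∀ x ∈ (P : Subgroup G), k * x * k⁻¹ ∈ (P : Subgroup G) := by
    intro k hk x hx
    rw [← hPz] at hx ⊢
    obtain ⟨n, rfl⟩ := Subgroup.mem_zpowers_iff.mp hx
    have : k * y ^ n * k⁻¹ = (k * y * k⁻¹) ^ n := by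
      rw [conj_zpow]
    rw [this, hk]
    exact Subgroup.zpow_mem _ (Subgroup.inv_mem _ (Subgroup.mem_zpowers y)) n
  have hgN : g ∈ Subgroup.normalizer ((P : Subgroup G) : Set G) := by
    rw [Subgroup.mem_normalizer_iff]
    intro x
    constructor
    · exact hmap g hg x
    · intro hx
      have := hmap g⁻¹ (by rw [inv_inv]; exact hg') _ hx
      rw [inv_inv] at this
      have h3 : g⁻¹ * (g * x * g⁻¹) * g = x := by group
      rwa [h3] at this
  -- `g ^ e ∈ C(P)`
  have hnorm := Subgroup.normal_subgroupOf_centralizer_normalizer ((P : Subgroup G) : Set G)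
  have hpow : (⟨g, hgN⟩ : Subgroup.normalizer ((P : Subgroup G) : Set G)) ^ e ∈
      (Subgroup.centralizer ((P : Subgroup G) : Set G)).subgroupOf
        (Subgroup.normalizer ((P : Subgroup G) : Set G)) := by
    rw [← he]
    exact Subgroup.pow_index_mem _ _
  have hgeC : g ^ e ∈ Subgroup.centralizer ((P : Subgroup G) : Set G) := by
    have := Subgroup.mem_subgroupOf.mp hpow
    simpa using this
  -- `g ^ 2 ∈ C(P)`
  have hcomm_of : ∀ k : G, k * y = y * k → k ∈ Subgroup.centralizer ((P : Subgroup G) : Set G) := by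
    intro k hk
    rw [Subgroup.mem_centralizer_iff]
    intro x hx
    have hx' : x ∈ Subgroup.zpowers y := by rw [hPz]; exact hx
    obtain ⟨n, rfl⟩ := Subgroup.mem_zpowers_iff.mp hx'
    exact ((Commute.zpow_right (show Commute k y from hk) n).eq).symm
  have hg2 : g ^ 2 ∈ Subgroup.centralizer ((P : Subgroup G) : Set G) := by
    apply hcomm_of
    have h4 : g ^ 2 * y * (g ^ 2)⁻¹ = y := by
      have : g ^ 2 * y * (g ^ 2)⁻¹ = g * (g * y * g⁻¹) * g⁻¹ := by
        rw [pow_two]; group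
      rw [this, hg]
      have : g * y⁻¹ * g⁻¹ = (g * y * g⁻¹)⁻¹ := by group
      rw [this, hg, inv_inv]
    calc g ^ 2 * y = g ^ 2 * y * (g ^ 2)⁻¹ * g ^ 2 := by group
      _ = y * g ^ 2 := by rw [h4]
  -- `e` odd: `g ∈ C(P)`
  have hgC : g ∈ Subgroup.centralizer ((P : Subgroup G) : Set G) := by
    obtain ⟨k, hk⟩ : ∃ k, e = 2 * k + 1 := ⟨e / 2, by omega⟩
    have h5 : g = g ^ e * ((g ^ 2) ^ k)⁻¹ := by
      rw [hk, ← pow_mul, pow_succ]
      group
    rw [h5]
    exact Subgroup.mul_mem _ hgeC (Subgroup.inv_mem _ (Subgroup.pow_mem _ hg2 k))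
  have h6 : g * y * g⁻¹ = y := by
    have := (Subgroup.mem_centralizer_iff.mp hgC) y hy
    rw [← this, mul_inv_cancel_right]
  rw [hg] at h6
  have h7 : y ^ 2 = 1 := by
    rw [pow_two]
    nth_rewrite 1 [← h6]
    exact inv_mul_cancel y
  have h8 : p ∣ 2 := by
    rw [← hord]
    exact orderOf_dvd_of_pow_eq_one h7
  exact hodd ((Nat.prime_dvd_prime_iff_eq hp Nat.prime_two).mp h8)

end Cfsg.Agent.Helper41
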