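import Cfsg.Agent.Helper96.Sp4Q3

/-!
# Piece A2 of CALL S5787 (helper96): a symplectic frame adapted to `i`

For a matrix `i` with `i * i = -1` preserving the standard alternating form on `F_3^4` there is
a symplectic `P` with `i * P = P * kr 1 mJ`.
-/

set_option autoImplicit false
open Cfsg Cfsg.Geo Matrix Cfsg.Agent.Helper96.Q3

namespace Cfsg.Agent.Helper41

variable {F : Type*} [Field F]

namespace Sp4Q3A2

theorem sfl_add (u u' v : Fin 2 ⊕ Fin 2 → F) :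
    sympForm 2 F (u + u') v = sympForm 2 F u v + sympForm 2 F u' v := by
  rw [← Helper94.sympB_apply, ← Helper94.sympB_apply, ← Helper94.sympB_apply, map_add,
    LinearMap.add_apply]

theorem sfl_smul (c : F) (u v : Fin 2 ⊕ Fin 2 → F) :
    sympForm 2 F (c • u) v = c * sympForm 2 F u v := by
  rw [← Helper94.sympB_apply, ← Helper94.sympB_apply, map_smul, LinearMap.smul_apply, smul_eq_mul]

theorem sfr_add (u v v' : Fin 2 ⊕ Fin 2 → F) :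
    sympForm 2 F u (v + v') = sympForm 2 F u v + sympForm 2 F u v' := by
  rw [← Helper94.sympB_apply, ← Helper94.sympB_apply, ← Helper94.sympB_apply, map_add]

theorem sfr_smul (c : F) (u v : Fin 2 ⊕ Fin 2 → F) :
    sympForm 2 F u (c • v) = c * sympForm 2 F u v := by
  rw [← Helper94.sympB_apply, ← Helper94.sympB_apply, map_smul, smul_eq_mul]

/-- the form is non-degenerate. -/
theorem sf_nondeg {v : Fin 2 ⊕ Fin 2 → F} (hv : v ≠ 0) : ∃ u, sympForm 2 F v u ≠ 0 := by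
  classical
  by_contra hcon
  push Not at hcon
  apply hv
  funext c
  rcases c with k | k
  · have h := hcon (Pi.single (Sum.inr k) 1)
    rw [Helper94.symp_explicit] at h
    simpa [Pi.single_apply] using h
  · have h := hcon (Pi.single (Sum.inl k) 1)
    rw [Helper94.symp_explicit] at h
    simpa [Pi.single_apply] using h

/-- Chevalley-Warning: the quadratic form `v ↦ f(i v, v)` has a non-trivial zero. -/
theorem exists_iso [Fintype F] (hF : Fintype.card F = 3)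
    (i : Matrix (Fin 2 ⊕ Fin 2) (Fin 2 ⊕ Fin 2) F) :
    ∃ v : Fin 2 ⊕ Fin 2 → F, v ≠ 0 ∧ sympForm 2 F (i *ᵥ v) v = 0 := by
  classical
  haveI : Fact (Nat.Prime 3) := ⟨by norm_num⟩
  haveI : CharP F 3 := charP_of_card_eq_prime hF
  obtain ⟨p, hp⟩ : ∃ p : MvPolynomial (Fin 2 ⊕ Fin 2) F, p =
    ∑ r, (∑ a, MvPolynomial.C (i r a) * MvPolynomial.X a) *
      (∑ b, MvPolynomial.C (Matrix.J (Fin 2) F r b) * MvPolynomial.X b) := ⟨_, rfl⟩
  have hdeg : p.totalDegree < Fintype.card (Fin 2 ⊕ Fin 2) := by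
    have h4 : Fintype.card (Fin 2 ⊕ Fin 2) = 4 := by simp
    rw [h4]
    have h1 : ∀ (c : Fin 2 ⊕ Fin 2 → F), (∑ a, MvPolynomial.C (c a) * MvPolynomial.X a :
        MvPolynomial (Fin 2 ⊕ Fin 2) F).totalDegree ≤ 1 := by
      intro c
      apply MvPolynomial.totalDegree_finsetSum_le
      intro a _
      refine (MvPolynomial.totalDegree_mul _ _).trans ?_
      rw [MvPolynomial.totalDegree_C, MvPolynomial.totalDegree_X]
    have h2 : p.totalDegree ≤ 2 := by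
      rw [hp]
      apply MvPolynomial.totalDegree_finsetSum_le
      intro r _
      refine (MvPolynomial.totalDegree_mul _ _).trans ?_
      have := h1 (i r)
      have := h1 (Matrix.J (Fin 2) F r)
      omega
    omega
  have hdvd := char_dvd_card_solutions 3 hdeg
  have heval : ∀ x : Fin 2 ⊕ Fin 2 → F, MvPolynomial.eval x p = sympForm 2 F (i *ᵥ x) x := by
    intro x
    rw [hp]
    simp only [map_sum, map_mul, MvPolynomial.eval_C, MvPolynomial.eval_X]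
    rfl
  have hz : MvPolynomial.eval (0 : Fin 2 ⊕ Fin 2 → F) p = 0 := by
    rw [heval]
    simp [sympForm]
  have hcard : 1 < Fintype.card {x : Fin 2 ⊕ Fin 2 → F // MvPolynomial.eval x p = 0} := by
    have hpos : 0 < Fintype.card {x : Fin 2 ⊕ Fin 2 → F // MvPolynomial.eval x p = 0} :=
      Fintype.card_pos_iff.mpr ⟨⟨0, hz⟩⟩
    have := Nat.le_of_dvd hpos hdvd
    omega
  obtain ⟨w, hw⟩ := Fintype.exists_ne_of_one_lt_card hcard ⟨0, hz⟩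
  refine ⟨w.1, fun h => hw (Subtype.ext h), ?_⟩
  rw [← heval]
  exact w.2

theorem sq_sum_ne [Fintype F] (hF : Fintype.card F = 3) {x y : F} (hx : x ≠ 0) :
    x ^ 2 + y ^ 2 ≠ 0 := by
  obtain ⟨e⟩ : Nonempty (F ≃+* ZMod 3) := ⟨(ZMod.ringEquivOfPrime F (by norm_num) hF).symm⟩
  have hdec : ∀ a b : ZMod 3, a ≠ 0 → a ^ 2 + b ^ 2 ≠ 0 := by decide
  intro h
  apply hdec (e x) (e y) (fun h0 => hx (e.injective (by rw [h0, map_zero])))
  rw [← map_pow, ← map_pow, ← map_add, h, map_zero]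

theorem two_ne [Fintype F] (hF : Fintype.card F = 3) : (2 : F) ≠ 0 := by
  obtain ⟨e⟩ : Nonempty (F ≃+* ZMod 3) := ⟨(ZMod.ringEquivOfPrime F (by norm_num) hF).symm⟩
  intro h
  have h2 : e 2 = 0 := by rw [h, map_zero]
  rw [map_ofNat] at h2
  revert h2
  decide

/-- the second vector of the frame. -/
theorem exists_pair [Fintype F] (hF : Fintype.card F = 3)
    (i : Matrix (Fin 2 ⊕ Fin 2) (Fin 2 ⊕ Fin 2) F) (hi : i * i = -1)
    (hiso : ∀ u v, sympForm 2 F (i *ᵥ u) (i *ᵥ v) = sympForm 2 F u v)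
    (e₁ : Fin 2 ⊕ Fin 2 → F) (h0 : e₁ ≠ 0) (hQ : sympForm 2 F (i *ᵥ e₁) e₁ = 0) :
    ∃ e₂ : Fin 2 ⊕ Fin 2 → F, sympForm 2 F e₁ e₂ = 1 ∧ sympForm 2 F e₁ (i *ᵥ e₂) = 0 ∧
      sympForm 2 F e₂ (i *ᵥ e₂) = 0 := by
  have hii : ∀ v : Fin 2 ⊕ Fin 2 → F, i *ᵥ (i *ᵥ v) = (-1 : F) • v := by
    intro v
    rw [Matrix.mulVec_mulVec, hi, Matrix.neg_mulVec, Matrix.one_mulVec, neg_one_smul]
  obtain ⟨u, hu⟩ := sf_nondeg h0
  obtain ⟨x, hx⟩ : ∃ x : F, x = sympForm 2 F e₁ u := ⟨_, rfl⟩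
  obtain ⟨y, hy⟩ : ∃ y : F, y = sympForm 2 F e₁ (i *ᵥ u) := ⟨_, rfl⟩
  rw [← hx] at hu
  have hn : x ^ 2 + y ^ 2 ≠ 0 := sq_sum_ne hF hu
  obtain ⟨u', hu'⟩ : ∃ u' : Fin 2 ⊕ Fin 2 → F,
      u' = (x / (x ^ 2 + y ^ 2)) • u + (y / (x ^ 2 + y ^ 2)) • (i *ᵥ u) := ⟨_, rfl⟩
  have hiu' : i *ᵥ u' = (x / (x ^ 2 + y ^ 2)) • (i *ᵥ u) +
      (y / (x ^ 2 + y ^ 2)) • ((-1 : F) • u) := by
    rw [hu', Matrix.mulVec_add, Matrix.mulVec_smul, Matrix.mulVec_smul, hii]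
  have h1 : sympForm 2 F e₁ u' = 1 := by
    rw [hu']
    simp only [sfr_add, sfr_smul, ← hx, ← hy]
    field_simp
  have h2 : sympForm 2 F e₁ (i *ᵥ u') = 0 := by
    rw [hiu']
    simp only [sfr_add, sfr_smul, ← hx, ← hy]
    field_simp
    ring
  have h11 : sympForm 2 F e₁ (i *ᵥ e₁) = 0 := by
    rw [Helper94.symp_skew, hQ, neg_zero]
  obtain ⟨A, hA⟩ : ∃ A : F, A = sympForm 2 F u' (i *ᵥ u') := ⟨_, rfl⟩
  have h2ne := two_ne hF
  obtain ⟨β, hβ⟩ : ∃ β : F, 2 * β = -A := ⟨-A / 2, by field_simp⟩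
  refine ⟨u' + β • (i *ᵥ e₁), ?_, ?_, ?_⟩
  · rw [sfr_add, sfr_smul, h1, h11]
    ring
  · rw [Matrix.mulVec_add, Matrix.mulVec_smul, hii, sfr_add, sfr_smul, sfr_smul, h2,
      Helper94.symp_self]
    ring
  · have h3 : sympForm 2 F u' e₁ = -1 := by
      rw [Helper94.symp_skew, h1]
    have h4 : sympForm 2 F (i *ᵥ e₁) (i *ᵥ u') = 1 := by
      rw [hiso, h1]
    rw [Matrix.mulVec_add, Matrix.mulVec_smul, hii]
    simp only [sfl_add, sfr_add, sfl_smul, sfr_smul, h3, h4, hQ, ← hA]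
    linear_combination hβ

/-- the matrix with given columns. -/
def frameMat (c₁ c₂ c₃ c₄ : Fin 2 ⊕ Fin 2 → F) : Matrix (Fin 2 ⊕ Fin 2) (Fin 2 ⊕ Fin 2) F :=
  Matrix.of fun r c => Sum.elim ![c₁ r, c₂ r] ![c₃ r, c₄ r] c

theorem sp_gram_apply (P : Matrix (Fin 2 ⊕ Fin 2) (Fin 2 ⊕ Fin 2) F) (c d : Fin 2 ⊕ Fin 2) :
    (Pᵀ * Matrix.J (Fin 2) F * P) c d = sympForm 2 F (fun r => P r c) (fun r => P r d) := by
  rw [Matrix.mul_assoc, Matrix.mul_apply]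
  unfold sympForm
  rw [dotProduct]
  refine Finset.sum_congr rfl (fun r _ => ?_)
  rw [Matrix.transpose_apply, Matrix.mul_apply]
  rfl

end Sp4Q3A2

open Sp4Q3A2 in
theorem sp4q3_frame [Fintype F] (hF : Fintype.card F = 3)
    (i : Matrix (Fin 2 ⊕ Fin 2) (Fin 2 ⊕ Fin 2) F) (hi : i * i = -1)
    (hiso : ∀ u v, sympForm 2 F (i *ᵥ u) (i *ᵥ v) = sympForm 2 F u v) :
    ∃ P : GL (Fin 2 ⊕ Fin 2) F, P ∈ spGL 2 F ∧
      i * (P : Matrix (Fin 2 ⊕ Fin 2) (Fin 2 ⊕ Fin 2) F) =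
        (P : Matrix (Fin 2 ⊕ Fin 2) (Fin 2 ⊕ Fin 2) F) * kr 1 mJ := by
  classical
  have hii : ∀ v : Fin 2 ⊕ Fin 2 → F, i *ᵥ (i *ᵥ v) = (-1 : F) • v := by
    intro v
    rw [Matrix.mulVec_mulVec, hi, Matrix.neg_mulVec, Matrix.one_mulVec, neg_one_smul]
  obtain ⟨e₁, h0, hQ⟩ := exists_iso hF i
  obtain ⟨e₂, h12, h1i2, h2i2⟩ := exists_pair hF i hi hiso e₁ h0 hQ
  obtain ⟨P, hP⟩ : ∃ P : Matrix (Fin 2 ⊕ Fin 2) (Fin 2 ⊕ Fin 2) F,
      P = frameMat e₂ (i *ᵥ e₂) e₁ (i *ᵥ e₁) := ⟨_, rfl⟩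
  have c00 : (fun r => P r (Sum.inl 0)) = e₂ := by
    funext r; rw [hP]; rfl
  have c01 : (fun r => P r (Sum.inl 1)) = i *ᵥ e₂ := by
    funext r; rw [hP]; rfl
  have c10 : (fun r => P r (Sum.inr 0)) = e₁ := by
    funext r; rw [hP]; rfl
  have c11 : (fun r => P r (Sum.inr 1)) = i *ᵥ e₁ := by
    funext r; rw [hP]; rfl
  have h21 : sympForm 2 F e₂ e₁ = -1 := by rw [Helper94.symp_skew, h12]
  have hi2i2 : sympForm 2 F (i *ᵥ e₂) e₂ = 0 := by rw [Helper94.symp_skew, h2i2, neg_zero]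
  have h1i1 : sympForm 2 F e₁ (i *ᵥ e₁) = 0 := by rw [Helper94.symp_skew, hQ, neg_zero]
  have hi21 : sympForm 2 F (i *ᵥ e₂) e₁ = 0 := by rw [Helper94.symp_skew, h1i2, neg_zero]
  have hi12 : sympForm 2 F (i *ᵥ e₁) e₂ = 0 := by
    have h := hiso (i *ᵥ e₁) e₂
    rw [hii, sfl_smul, h1i2] at h
    rw [← h]; ring
  have h2i1 : sympForm 2 F e₂ (i *ᵥ e₁) = 0 := by rw [Helper94.symp_skew, hi12, neg_zero]
  have hgram : Pᵀ * Matrix.J (Fin 2) F * P = Matrix.J (Fin 2) F := by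
    ext c d
    rw [sp_gram_apply]
    rcases c with c | c <;> rcases d with d | d <;> fin_cases c <;> fin_cases d <;>
      simp only [Fin.zero_eta, Fin.mk_one, Fin.isValue, c00, c01, c10, c11, Helper94.symp_self,
        hiso, h12, h1i2, h2i2, h21, hi2i2, h1i1, hi21, hi12, h2i1, hQ] <;>
      simp [Matrix.J]
  have hJ : Matrix.J (Fin 2) F * Matrix.J (Fin 2) F = -1 := Matrix.J_squared (Fin 2) F
  have hinv : (-Matrix.J (Fin 2) F * Pᵀ * Matrix.J (Fin 2) F) * P = 1 := by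
    rw [Matrix.mul_assoc, Matrix.mul_assoc, ← Matrix.mul_assoc Pᵀ, hgram, Matrix.neg_mul, hJ,
      neg_neg]
  refine ⟨⟨P, -Matrix.J (Fin 2) F * Pᵀ * Matrix.J (Fin 2) F,
    (mul_eq_one_comm.mp hinv), hinv⟩, ?_, ?_⟩
  · rw [mem_spGL_iff_mat]
    exact hgram
  · show i * P = P * kr 1 mJ
    ext r c
    have hl : ∀ d, (i * P) r d = (i *ᵥ (fun s => P s d)) r := fun d => rfl
    have hr : ∀ d, (P * (kr 1 mJ : Matrix (Fin 2 ⊕ Fin 2) (Fin 2 ⊕ Fin 2) F)) r d = P r (Sum.inl 0) * (kr 1 mJ : Matrix (Fin 2 ⊕ Fin 2) (Fin 2 ⊕ Fin 2) F) (Sum.inl 0) d +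
        P r (Sum.inl 1) * (kr 1 mJ : Matrix (Fin 2 ⊕ Fin 2) (Fin 2 ⊕ Fin 2) F) (Sum.inl 1) d + (P r (Sum.inr 0) * (kr 1 mJ : Matrix (Fin 2 ⊕ Fin 2) (Fin 2 ⊕ Fin 2) F) (Sum.inr 0) d +
        P r (Sum.inr 1) * (kr 1 mJ : Matrix (Fin 2 ⊕ Fin 2) (Fin 2 ⊕ Fin 2) F) (Sum.inr 1) d) := by
      intro d
      rw [Matrix.mul_apply, Fintype.sum_sum_type, Fin.sum_univ_two, Fin.sum_univ_two]
    rcases c with c | c <;> fin_cases c
    · change (i * P) r (Sum.inl 0) = (P * (kr 1 mJ : Matrix (Fin 2 ⊕ Fin 2) (Fin 2 ⊕ Fin 2) F)) r (Sum.inl 0)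
      rw [hl, hr, c00]
      simp [kr_apply_inl_inl, kr_apply_inr_inl, mJ, hP, frameMat]
    · change (i * P) r (Sum.inl 1) = (P * (kr 1 mJ : Matrix (Fin 2 ⊕ Fin 2) (Fin 2 ⊕ Fin 2) F)) r (Sum.inl 1)
      rw [hl, hr, c01, hii]
      simp [kr_apply_inl_inl, kr_apply_inr_inl, mJ, hP, frameMat]
    · change (i * P) r (Sum.inr 0) = (P * (kr 1 mJ : Matrix (Fin 2 ⊕ Fin 2) (Fin 2 ⊕ Fin 2) F)) r (Sum.inr 0)
      rw [hl, hr, c10]
      simp [kr_apply_inl_inr, kr_apply_inr_inr, mJ, hP, frameMat]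
    · change (i * P) r (Sum.inr 1) = (P * (kr 1 mJ : Matrix (Fin 2 ⊕ Fin 2) (Fin 2 ⊕ Fin 2) F)) r (Sum.inr 1)
      rw [hl, hr, c11, hii]
      simp [kr_apply_inl_inr, kr_apply_inr_inr, mJ, hP, frameMat]

end Cfsg.Agent.Helper41
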