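import Cfsg.Agent.Helper96.Sp4Q3

/-!
# Piece Q of CALL S5787 (helper96): the quaternion group in `SL_2(3)`

All finite checks are done over `ZMod 3` by `decide` and transported to `F` along the ring
isomorphism `ZMod 3 ≃+* F`.
-/

set_option autoImplicit false
open Cfsg Cfsg.Geo Matrix Cfsg.Agent.Helper96.Q3

namespace Cfsg.Agent.Helper41

variable {F : Type*} [Field F]

namespace Sp4Q3Q

instance fact3 : Fact (Nat.Prime 3) := ⟨by norm_num⟩

/-- the eight elements of `Q_8` over `ZMod 3`. -/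
def L : List (Matrix (Fin 2) (Fin 2) (ZMod 3)) :=
  [1, -1, mJ, -mJ, mT, -mT, mJ * mT, -(mJ * mT)]

set_option maxRecDepth 100000 in
theorem scal : ∀ p q r s : ZMod 3, p * s - q * r = 1 →
    (p + s = 0 ∨ (p = 1 ∧ q = 0 ∧ r = 0 ∧ s = 1) ∨ (p = -1 ∧ q = 0 ∧ r = 0 ∧ s = -1)) →
    !![p, q; r, s] ∈ L := by decide

set_option maxRecDepth 100000 in
theorem L_mem : ∀ a ∈ L, a 0 0 * a 1 1 - a 0 1 * a 1 0 = 1 ∧
    (a 0 0 + a 1 1 = 0 ∨ a = 1 ∨ a = -1) := by decide

set_option maxRecDepth 100000 in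
theorem L_mul : ∀ a ∈ L, ∀ a' ∈ L, a * a' ∈ L := by decide

set_option maxRecDepth 100000 in
theorem L_sq : ∀ a ∈ L, a * a = 1 ∨ a * a = -1 := by decide

set_option maxRecDepth 100000 in
theorem L_comm : ∀ a ∈ L, ∀ a' ∈ L, a * a' = a' * a ∨ a * a' = -(a' * a) := by decide

set_option maxRecDepth 100000 in
theorem L_anti : ∀ a ∈ L, a ≠ 1 → a ≠ -1 → ∃ a' ∈ L, a * a' = -(a' * a) := by decide

theorem mem_L_of_mem {a : Matrix (Fin 2) (Fin 2) (ZMod 3)} (ha : a ∈ Q8set (F := ZMod 3)) :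
    a ∈ L := by
  obtain ⟨hdet, htr⟩ := ha
  rw [Matrix.det_fin_two] at hdet
  have h := scal (a 0 0) (a 0 1) (a 1 0) (a 1 1) hdet (by
    rcases htr with h | h | h
    · left
      rwa [Matrix.trace_fin_two] at h
    · right; left
      rw [h]
      simp
    · right; right
      rw [h]
      simp)
  rwa [← Matrix.eta_fin_two a] at h

theorem mem_of_mem_L {a : Matrix (Fin 2) (Fin 2) (ZMod 3)} (ha : a ∈ L) :
    a ∈ Q8set (F := ZMod 3) := by
  obtain ⟨h1, h2⟩ := L_mem a ha
  refine ⟨by rw [Matrix.det_fin_two]; exact h1, ?_⟩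
  rw [Matrix.trace_fin_two]
  exact h2

theorem mem_L_iff (a : Matrix (Fin 2) (Fin 2) (ZMod 3)) :
    a ∈ L ↔ a = 1 ∨ a = -1 ∨ a = mJ ∨ a = -mJ ∨ a = mT ∨ a = -mT ∨
      a = mJ * mT ∨ a = -(mJ * mT) := by
  unfold L
  simp only [List.mem_cons, List.not_mem_nil, or_false]

end Sp4Q3Q

open Sp4Q3Q in
theorem q8_facts [Fintype F] (hF : Fintype.card F = 3) :
    (∀ a ∈ Q8set (F := F), a = 1 ∨ a = -1 ∨ a = mJ ∨ a = -mJ ∨ a = mT ∨ a = -mT ∨
      a = mJ * mT ∨ a = -(mJ * mT)) ∧
    (mJ ∈ Q8set (F := F) ∧ mT ∈ Q8set (F := F)) ∧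
    (∀ a ∈ Q8set (F := F), ∀ a' ∈ Q8set (F := F), a * a' ∈ Q8set (F := F)) ∧
    (∀ a ∈ Q8set (F := F), a * a = 1 ∨ a * a = -1) ∧
    (∀ a ∈ Q8set (F := F), ∀ a' ∈ Q8set (F := F), a * a' = a' * a ∨ a * a' = -(a' * a)) ∧
    (∀ a ∈ Q8set (F := F), a ≠ 1 → a ≠ -1 → ∃ a' ∈ Q8set (F := F), a * a' = -(a' * a)) := by
  classical
  obtain ⟨e⟩ : Nonempty (F ≃+* ZMod 3) := ⟨(ZMod.ringEquivOfPrime F (by norm_num) hF).symm⟩
  obtain ⟨E, hE⟩ : ∃ E : Matrix (Fin 2) (Fin 2) F ≃+* Matrix (Fin 2) (Fin 2) (ZMod 3),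
      ∀ a i j, E a i j = e (a i j) := ⟨RingEquiv.mapMatrix e, fun a i j => rfl⟩
  have hEJ : E mJ = mJ := by
    ext i j
    rw [hE]
    fin_cases i <;> fin_cases j <;> simp [mJ]
  have hET : E mT = mT := by
    ext i j
    rw [hE]
    fin_cases i <;> fin_cases j <;> simp [mT]
  have hQ : ∀ a : Matrix (Fin 2) (Fin 2) F, a ∈ Q8set (F := F) ↔ E a ∈ Q8set (F := ZMod 3) := by
    intro a
    constructor
    · rintro ⟨hdet, htr⟩
      refine ⟨?_, ?_⟩
      · rw [Matrix.det_fin_two] at hdet ⊢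
        rw [hE, hE, hE, hE, ← map_mul, ← map_mul, ← map_sub, hdet, map_one]
      · rcases htr with h | h | h
        · left
          rw [Matrix.trace_fin_two] at h ⊢
          rw [hE, hE, ← map_add, h, map_zero]
        · right; left
          rw [h, map_one]
        · right; right
          rw [h, map_neg, map_one]
    · rintro ⟨hdet, htr⟩
      refine ⟨?_, ?_⟩
      · rw [Matrix.det_fin_two] at hdet ⊢
        rw [hE, hE, hE, hE, ← map_mul, ← map_mul, ← map_sub] at hdet
        exact e.injective (by rw [hdet, map_one])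
      · rcases htr with h | h | h
        · left
          rw [Matrix.trace_fin_two] at h ⊢
          rw [hE, hE, ← map_add] at h
          exact e.injective (by rw [h, map_zero])
        · right; left
          exact E.injective (by rw [h, map_one])
        · right; right
          exact E.injective (by rw [h, map_neg, map_one])
  have hL : ∀ a : Matrix (Fin 2) (Fin 2) F, a ∈ Q8set (F := F) → E a ∈ L :=
    fun a ha => mem_L_of_mem ((hQ a).mp ha)
  have hL' : ∀ a : Matrix (Fin 2) (Fin 2) F, E a ∈ L → a ∈ Q8set (F := F) :=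
    fun a ha => (hQ a).mpr (mem_of_mem_L ha)
  refine ⟨?_, ⟨?_, ?_⟩, ?_, ?_, ?_, ?_⟩
  · intro a ha
    have h := (mem_L_iff _).mp (hL a ha)
    rcases h with h | h | h | h | h | h | h | h
    · exact Or.inl (E.injective (by rw [h, map_one]))
    · exact Or.inr (Or.inl (E.injective (by rw [h, map_neg, map_one])))
    · exact Or.inr (Or.inr (Or.inl (E.injective (by rw [h, hEJ]))))
    · exact Or.inr (Or.inr (Or.inr (Or.inl (E.injective (by rw [h, map_neg, hEJ])))))
    · exact Or.inr (Or.inr (Or.inr (Or.inr (Or.inl (E.injective (by rw [h, hET]))))))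
    · exact Or.inr (Or.inr (Or.inr (Or.inr (Or.inr (Or.inl
        (E.injective (by rw [h, map_neg, hET])))))))
    · exact Or.inr (Or.inr (Or.inr (Or.inr (Or.inr (Or.inr (Or.inl
        (E.injective (by rw [h, map_mul, hEJ, hET]))))))))
    · exact Or.inr (Or.inr (Or.inr (Or.inr (Or.inr (Or.inr (Or.inr
        (E.injective (by rw [h, map_neg, map_mul, hEJ, hET]))))))))
  · apply hL'
    rw [hEJ, mem_L_iff]
    exact Or.inr (Or.inr (Or.inl rfl))
  · apply hL'
    rw [hET, mem_L_iff]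
    exact Or.inr (Or.inr (Or.inr (Or.inr (Or.inl rfl))))
  · intro a ha a' ha'
    apply hL'
    rw [map_mul]
    exact L_mul _ (hL a ha) _ (hL a' ha')
  · intro a ha
    rcases L_sq _ (hL a ha) with h | h
    · left
      exact E.injective (by rw [map_mul, h, map_one])
    · right
      exact E.injective (by rw [map_mul, h, map_neg, map_one])
  · intro a ha a' ha'
    rcases L_comm _ (hL a ha) _ (hL a' ha') with h | h
    · left
      exact E.injective (by rw [map_mul, h, map_mul])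
    · right
      exact E.injective (by rw [map_mul, h, map_neg, map_mul])
  · intro a ha h1 hm1
    have h1' : E a ≠ 1 := fun h => h1 (E.injective (by rw [h, map_one]))
    have hm1' : E a ≠ -1 := fun h => hm1 (E.injective (by rw [h, map_neg, map_one]))
    obtain ⟨b, hb, hab⟩ := L_anti _ (hL a ha) h1' hm1'
    refine ⟨E.symm b, hL' _ (by rw [RingEquiv.apply_symm_apply]; exact hb), ?_⟩
    exact E.injective (by rw [map_mul, map_neg, map_mul, RingEquiv.apply_symm_apply, hab])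

end Cfsg.Agent.Helper41
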