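import Mathlib
import Cfsg.Prelude.Def_GeometricClasses
import Cfsg.Agent.Helper71.T4Defs
import Cfsg.Agent.Helper71.T4Main
import Cfsg.Agent.Helper97.OForm
import Cfsg.Agent.Helper96.T5Defs

/-!
# CALL S5704, piece REDG (helper41): transport of the dichotomy to the maximality statement
-/

set_option autoImplicit false
set_option linter.unusedVariables false

namespace Cfsg.Agent.Helper41.T5REDG

open Matrix Cfsg Cfsg.Geo Cfsg.Agent.Helper71.T4 Cfsg.Agent.Helper96.T5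
open scoped Kronecker

/-- `Ω(Q)` inside `GL` is the commutator subgroup of the isometry group. -/
theorem redg_omegaGL_eq {κ : Type} [Fintype κ] [DecidableEq κ] {F : Type*} [Field F]
    (Q : (κ → F) → F) : omegaGL Q = ⁅isometryGroup F Q, isometryGroup F Q⁆ := by
  unfold omegaGL Omega
  rw [commutator_def, Subgroup.map_commutator, ← MonoidHom.range_eq_map, Subgroup.range_subtype]

/-- PIECE REDG: transport of the dichotomy to the maximality statement. -/
theorem redg {F : Type*} [Field F] {n : ℕ} (Q : (Fin n → F) → F) (n₁ n₂ : ℕ)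
    (h1 : 1 ≤ n₁) (h2 : 1 ≤ n₂)
    (e : Fin n ≃ Fin n₁ × Fin n₂) (P : GL (Fin n) F) (c : F) (hc : c ≠ 0)
    (Q' : (Fin n₁ × Fin n₂ → F) → F)
    (hQQ : ∀ v : Fin n₁ × Fin n₂ → F, Q ((P : Matrix (Fin n) (Fin n) F) *ᵥ (v ∘ e)) = c * Q' v)
    (hprop : ∃ g : GL (Fin n₁ × Fin n₂) F, g ∈ omegaGL Q' ∧ ¬ IsKron g.1)
    (hmain : ∀ K : Subgroup (GL (Fin n₁ × Fin n₂) F), kronSub n₁ n₂ F ⊓ omegaGL Q' ≤ K →
      K ≤ omegaGL Q' → (∀ g ∈ K, IsKron g.1) ∨ omegaGL Q' ≤ K) :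
    IsMaximalIn (omegaGL Q) (tensorProductSubgroup n₁ n₂ e P ⊓ omegaGL Q) := by
  classical
  obtain ⟨ψ, hψ⟩ : ∃ ψ : GL (Fin n₁ × Fin n₂) F ≃* GL (Fin n) F,
      ψ = (glReindex e.symm).trans (MulAut.conj P) := ⟨_, rfl⟩
  have hT : tensorProductSubgroup n₁ n₂ e P
      = (kroneckerSubgroup n₁ n₂ F).map ψ.toMonoidHom := by
    unfold tensorProductSubgroup
    rw [Subgroup.map_map, hψ]
    rfl
  -- the action of `ψ g`
  have hre : ∀ (g : GL (Fin n₁ × Fin n₂) F) (v : Fin n₁ × Fin n₂ → F),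
      ((glReindex e.symm g : GL (Fin n) F) : Matrix (Fin n) (Fin n) F) *ᵥ (v ∘ e)
        = ((g : Matrix (Fin n₁ × Fin n₂) (Fin n₁ × Fin n₂) F) *ᵥ v) ∘ e := by
    intro g v
    show ((g : Matrix (Fin n₁ × Fin n₂) (Fin n₁ × Fin n₂) F).submatrix e e) *ᵥ (v ∘ e) = _
    rw [Matrix.submatrix_mulVec_equiv]
    congr 2
    funext p
    simp
  have hact : ∀ (g : GL (Fin n₁ × Fin n₂) F) (v : Fin n₁ × Fin n₂ → F),
      ((ψ g : GL (Fin n) F) : Matrix (Fin n) (Fin n) F) *ᵥ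
          ((P : Matrix (Fin n) (Fin n) F) *ᵥ (v ∘ e))
        = (P : Matrix (Fin n) (Fin n) F) *ᵥ
          (((g : Matrix (Fin n₁ × Fin n₂) (Fin n₁ × Fin n₂) F) *ᵥ v) ∘ e) := by
    intro g v
    have h : ψ g = P * glReindex e.symm g * P⁻¹ := by
      rw [hψ]
      rfl
    rw [h, Matrix.mulVec_mulVec, ← Units.val_mul, inv_mul_cancel_right, Units.val_mul,
      ← Matrix.mulVec_mulVec, hre]
  have hsurj : ∀ x : Fin n → F, ∃ v : Fin n₁ × Fin n₂ → F,
      x = (P : Matrix (Fin n) (Fin n) F) *ᵥ (v ∘ e) := by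
    intro x
    refine ⟨(((P⁻¹ : GL (Fin n) F) : Matrix (Fin n) (Fin n) F) *ᵥ x) ∘ e.symm, ?_⟩
    have h3 : ((((P⁻¹ : GL (Fin n) F) : Matrix (Fin n) (Fin n) F) *ᵥ x) ∘ e.symm) ∘ e
        = ((P⁻¹ : GL (Fin n) F) : Matrix (Fin n) (Fin n) F) *ᵥ x := by
      funext i
      simp
    rw [h3, Matrix.mulVec_mulVec, ← Units.val_mul, mul_inv_cancel, Units.val_one,
      Matrix.one_mulVec]
  have hiso : ∀ g : GL (Fin n₁ × Fin n₂) F,
      ψ g ∈ isometryGroup F Q ↔ g ∈ isometryGroup F Q' := by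
    intro g
    rw [Helper97.Gen.mem_isometryGroup_iff, Helper97.Gen.mem_isometryGroup_iff]
    constructor
    · intro h v
      have := h ((P : Matrix (Fin n) (Fin n) F) *ᵥ (v ∘ e))
      rw [hact, hQQ, hQQ] at this
      exact mul_left_cancel₀ hc this
    · intro h x
      obtain ⟨v, rfl⟩ := hsurj x
      rw [hact, hQQ, hQQ, h]
  have hI : isometryGroup F Q = (isometryGroup F Q').map ψ.toMonoidHom := by
    ext k
    obtain ⟨g, rfl⟩ := ψ.surjective k
    rw [hiso]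
    constructor
    · intro h
      exact ⟨g, h, rfl⟩
    · rintro ⟨g', hg', h⟩
      have h' : g' = g := ψ.injective h
      rwa [← h']
  have hΩ : omegaGL Q = (omegaGL Q').map ψ.toMonoidHom := by
    rw [redg_omegaGL_eq, redg_omegaGL_eq, hI, ← Subgroup.map_commutator]
  have hmemΩ : ∀ g : GL (Fin n₁ × Fin n₂) F, ψ g ∈ omegaGL Q ↔ g ∈ omegaGL Q' := by
    intro g
    rw [hΩ]
    constructor
    · rintro ⟨g', hg', h⟩
      have h' : g' = g := ψ.injective h
      rwa [← h']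
    · intro h
      exact ⟨g, h, rfl⟩
  have hmemT : ∀ g : GL (Fin n₁ × Fin n₂) F,
      ψ g ∈ tensorProductSubgroup n₁ n₂ e P ↔ g ∈ kroneckerSubgroup n₁ n₂ F := by
    intro g
    rw [hT]
    constructor
    · rintro ⟨g', hg', h⟩
      have h' : g' = g := ψ.injective h
      rwa [← h']
    · intro h
      exact ⟨g, h, rfl⟩
  have hc1 : Fintype.card (Fin n₁) ≠ 0 := by
    rw [Fintype.card_fin]; omega
  have hc2 : Fintype.card (Fin n₂) ≠ 0 := by
    rw [Fintype.card_fin]; omega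
  have hkron : ∀ g : GL (Fin n₁ × Fin n₂) F,
      g ∈ kroneckerSubgroup n₁ n₂ F ↔ IsKron g.1 := by
    intro g
    constructor
    · rintro ⟨a, b, h⟩
      exact ⟨a.1, b.1, h⟩
    · rintro ⟨A, B, hAB⟩
      have hdetg : (g : Matrix (Fin n₁ × Fin n₂) (Fin n₁ × Fin n₂) F).det ≠ 0 :=
        ((Matrix.isUnit_iff_isUnit_det _).1 g.isUnit).ne_zero
      have hAB' : (g : Matrix (Fin n₁ × Fin n₂) (Fin n₁ × Fin n₂) F) = A ⊗ₖ B := hAB
      rw [hAB', Matrix.det_kronecker] at hdetg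
      have hA : A.det ≠ 0 := by
        intro h
        apply hdetg
        rw [h, zero_pow hc2, zero_mul]
      have hB : B.det ≠ 0 := by
        intro h
        apply hdetg
        rw [h, zero_pow hc1, mul_zero]
      exact ⟨Matrix.GeneralLinearGroup.mkOfDetNeZero A hA,
        Matrix.GeneralLinearGroup.mkOfDetNeZero B hB, hAB'⟩
  constructor
  · rw [SetLike.lt_iff_le_and_exists]
    refine ⟨inf_le_right, ?_⟩
    obtain ⟨g, hg, hnk⟩ := hprop
    exact ⟨ψ g, (hmemΩ g).mpr hg, fun hmem => hnk ((hkron g).mp ((hmemT g).mp hmem.1))⟩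
  · intro M hHM hMΩ
    have hK1 : kronSub n₁ n₂ F ⊓ omegaGL Q' ≤ M.comap ψ.toMonoidHom := by
      intro g hg
      show ψ g ∈ M
      apply hHM
      exact ⟨(hmemT g).mpr ((hkron g).mpr hg.1), (hmemΩ g).mpr hg.2⟩
    have hK2 : M.comap ψ.toMonoidHom ≤ omegaGL Q' := by
      intro g hg
      exact (hmemΩ g).mp (hMΩ hg)
    rcases hmain _ hK1 hK2 with hk | hΩle
    · left
      apply le_antisymm _ hHM
      intro k hk'
      obtain ⟨g, rfl⟩ := ψ.surjective k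
      exact ⟨(hmemT g).mpr ((hkron g).mpr (hk g hk')), hMΩ hk'⟩
    · right
      apply le_antisymm hMΩ
      intro s hs
      obtain ⟨g, rfl⟩ := ψ.surjective s
      exact hΩle ((hmemΩ g).mp hs)

end Cfsg.Agent.Helper41.T5REDG
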