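import Mathlib
import Cfsg.Prelude.Def_GeometricClasses
import Cfsg.Agent.Helper71.T4Defs
import Cfsg.Agent.Helper71.T4Main
import Cfsg.Agent.Helper97.OForm
import Cfsg.Agent.Helper96.T5Defs
import Cfsg.Agent.Helper94.Tens

/-!
# CALL S5704, piece REDQ (helper41): the quadratic form transported to `Fin n₁ × Fin n₂`
-/

set_option autoImplicit false
set_option linter.unusedVariables false

namespace Cfsg.Agent.Helper41.T5REDQ

open Matrix Cfsg Cfsg.Geo Cfsg.Agent.Helper71.T4 Cfsg.Agent.Helper96.T5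
open scoped Kronecker

/-- the form of a Gram matrix (bilinear case) is `bf` -/
theorem redq_formOfGram_eq_bf {κ : Type} [Fintype κ] [DecidableEq κ] {F : Type*} [Field F]
    (G : Matrix κ κ F) (x y : κ → F) : formOfGram id G x y = bf G x y := by
  simp only [formOfGram, bf, dotProduct, Matrix.mulVec, id, Finset.mul_sum, mul_assoc]

/-- a bilinear form is `bf` of its Gram matrix -/
theorem redq_bf_gram {κ : Type} [Fintype κ] [DecidableEq κ] {F : Type*} [Field F]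
    (f : (κ → F) → (κ → F) → F) (hf : IsBilinearForm f) (x y : κ → F) :
    bf (gramMatrix f) x y = f x y := by
  rw [← redq_formOfGram_eq_bf]
  exact Cfsg.Agent.Helper94.formOfGram_gram id f hf.add_left hf.smul_left hf.add_right
    hf.smul_right x y

/-- the Gram matrix of a non-degenerate bilinear form is invertible -/
theorem redq_det_ne {κ : Type} [Fintype κ] [DecidableEq κ] {F : Type*} [Field F]
    (f : (κ → F) → (κ → F) → F) (hf : IsBilinearForm f) (hnd : IsNondegenerateForm f) :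
    (gramMatrix f).det ≠ 0 := by
  intro hdet
  obtain ⟨y, hy, hy0⟩ := Matrix.exists_mulVec_eq_zero_iff.mpr hdet
  obtain ⟨x, hx⟩ := (hnd y hy).1
  apply hx
  rw [← redq_bf_gram f hf, bf, hy0, dotProduct_zero]

/-- PIECE REDQ: the quadratic form transported to `Fin n₁ × Fin n₂`. -/
theorem redq {F : Type*} [Field F] {n : ℕ} (Q : (Fin n → F) → F)
    (hQ : IsNondegenerateQuadraticForm Q) (n₁ n₂ : ℕ) (e : Fin n ≃ Fin n₁ × Fin n₂)
    (P : GL (Fin n) F) (f₁ : (Fin n₁ → F) → (Fin n₁ → F) → F)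
    (f₂ : (Fin n₂ → F) → (Fin n₂ → F) → F) (hf₁ : IsSymplecticForm f₁)
    (hf₂ : IsSymplecticForm f₂)
    (hT : IsTensorFormStructure id (QuadraticMap.polar Q) f₁ f₂ e P)
    (hpure : ∀ (x₁ : Fin n₁ → F) (x₂ : Fin n₂ → F),
      Q (Matrix.mulVec (P : Matrix (Fin n) (Fin n) F)
        ((fun a : Fin n₁ × Fin n₂ => x₁ a.1 * x₂ a.2) ∘ e)) = 0) :
    ∃ (c : F) (Q' : (Fin n₁ × Fin n₂ → F) → F), c ≠ 0 ∧
      TQ (gramMatrix f₁) (gramMatrix f₂) Q' ∧
      ∀ v : Fin n₁ × Fin n₂ → F, Q ((P : Matrix (Fin n) (Fin n) F) *ᵥ (v ∘ e)) = c * Q' v := by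
  classical
  obtain ⟨c, hc, hTc⟩ := hT
  -- the linear bijection `L v = P (v ∘ e)`
  have hLadd : ∀ v w : Fin n₁ × Fin n₂ → F,
      (P : Matrix (Fin n) (Fin n) F) *ᵥ ((v + w) ∘ e) =
        (P : Matrix (Fin n) (Fin n) F) *ᵥ (v ∘ e) + (P : Matrix (Fin n) (Fin n) F) *ᵥ (w ∘ e) := by
    intro v w
    rw [← Matrix.mulVec_add]
    rfl
  have hLsmul : ∀ (k : F) (v : Fin n₁ × Fin n₂ → F),
      (P : Matrix (Fin n) (Fin n) F) *ᵥ ((k • v) ∘ e) =
        k • ((P : Matrix (Fin n) (Fin n) F) *ᵥ (v ∘ e)) := by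
    intro k v
    rw [← Matrix.mulVec_smul]
    rfl
  have hLinj : ∀ v : Fin n₁ × Fin n₂ → F,
      (P : Matrix (Fin n) (Fin n) F) *ᵥ (v ∘ e) = 0 → v = 0 := by
    intro v hv
    have h1 : ((P⁻¹ : GL (Fin n) F) : Matrix (Fin n) (Fin n) F) *ᵥ
        ((P : Matrix (Fin n) (Fin n) F) *ᵥ (v ∘ e)) = 0 := by rw [hv, Matrix.mulVec_zero]
    rw [Matrix.mulVec_mulVec, ← Units.val_mul, inv_mul_cancel, Units.val_one,
      Matrix.one_mulVec] at h1
    funext p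
    have := congrFun h1 (e.symm p)
    simpa using this
  have hLsurj : ∀ x : Fin n → F, ∃ v : Fin n₁ × Fin n₂ → F,
      x = (P : Matrix (Fin n) (Fin n) F) *ᵥ (v ∘ e) := by
    intro x
    refine ⟨(((P⁻¹ : GL (Fin n) F) : Matrix (Fin n) (Fin n) F) *ᵥ x) ∘ e.symm, ?_⟩
    have h3 : ((((P⁻¹ : GL (Fin n) F) : Matrix (Fin n) (Fin n) F) *ᵥ x) ∘ e.symm) ∘ e
        = ((P⁻¹ : GL (Fin n) F) : Matrix (Fin n) (Fin n) F) *ᵥ x := by
      funext i
      simp
    rw [h3, Matrix.mulVec_mulVec, ← Units.val_mul, mul_inv_cancel, Units.val_one,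
      Matrix.one_mulVec]
  -- the polar form of `Q'`
  have hpol : ∀ v w : Fin n₁ × Fin n₂ → F,
      QuadraticMap.polar (fun v : Fin n₁ × Fin n₂ → F =>
          c⁻¹ * Q ((P : Matrix (Fin n) (Fin n) F) *ᵥ (v ∘ e))) v w =
        c⁻¹ * QuadraticMap.polar Q ((P : Matrix (Fin n) (Fin n) F) *ᵥ (v ∘ e))
          ((P : Matrix (Fin n) (Fin n) F) *ᵥ (w ∘ e)) := by
    intro v w
    simp only [QuadraticMap.polar]
    rw [hLadd]
    ring
  have hpol2 : ∀ v w : Fin n₁ × Fin n₂ → F,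
      QuadraticMap.polar (fun v : Fin n₁ × Fin n₂ → F =>
          c⁻¹ * Q ((P : Matrix (Fin n) (Fin n) F) *ᵥ (v ∘ e))) v w =
        bf (gramMatrix f₁ ⊗ₖ gramMatrix f₂) v w := by
    intro v w
    rw [hpol, hTc, inv_mul_cancel_left₀ hc, redq_formOfGram_eq_bf]
  refine ⟨c, fun v => c⁻¹ * Q ((P : Matrix (Fin n) (Fin n) F) *ᵥ (v ∘ e)), hc, ?_, fun v => ?_⟩
  · refine ⟨?_, ?_, ?_, ?_, ⟨?_, ?_, ?_⟩, hpol2, ?_⟩
    · intro u
      rw [redq_bf_gram f₁ hf₁.bilinear]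
      exact hf₁.alternating u
    · exact redq_det_ne f₁ hf₁.bilinear hf₁.nondegenerate
    · intro w
      rw [redq_bf_gram f₂ hf₂.bilinear]
      exact hf₂.alternating w
    · exact redq_det_ne f₂ hf₂.bilinear hf₂.nondegenerate
    · intro k v
      show c⁻¹ * Q ((P : Matrix (Fin n) (Fin n) F) *ᵥ ((k • v) ∘ e)) =
        k ^ 2 * (c⁻¹ * Q ((P : Matrix (Fin n) (Fin n) F) *ᵥ (v ∘ e)))
      rw [hLsmul, hQ.smul]
      ring
    · refine ⟨fun x y v => ?_, fun k x v => ?_, fun v x y => ?_, fun k v x => ?_⟩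
      · rw [hpol2, hpol2, hpol2, bf_add_left]
      · rw [hpol2, hpol2, bf_smul_left]
      · rw [hpol2, hpol2, hpol2, bf_add_right]
      · rw [hpol2, hpol2, bf_smul_right]
    · intro v hv
      have hLv : (P : Matrix (Fin n) (Fin n) F) *ᵥ (v ∘ e) ≠ 0 := fun h => hv (hLinj v h)
      obtain ⟨⟨x, hx⟩, ⟨y, hy⟩⟩ := hQ.nondegenerate _ hLv
      obtain ⟨x', rfl⟩ := hLsurj x
      obtain ⟨y', rfl⟩ := hLsurj y
      refine ⟨⟨x', ?_⟩, ⟨y', ?_⟩⟩
      · rw [hpol]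
        exact mul_ne_zero (inv_ne_zero hc) hx
      · rw [hpol]
        exact mul_ne_zero (inv_ne_zero hc) hy
    · intro u w
      show c⁻¹ * Q ((P : Matrix (Fin n) (Fin n) F) *ᵥ (pt u w ∘ e)) = 0
      have := hpure u w
      have h2 : (pt u w) = (fun a : Fin n₁ × Fin n₂ => u a.1 * w a.2) := rfl
      rw [h2, this, mul_zero]
  · show Q ((P : Matrix (Fin n) (Fin n) F) *ᵥ (v ∘ e)) =
      c * (c⁻¹ * Q ((P : Matrix (Fin n) (Fin n) F) *ᵥ (v ∘ e)))
    rw [mul_inv_cancel_left₀ hc]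

end Cfsg.Agent.Helper41.T5REDQ
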